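import Cfsg.Agent.M24Geo.SextetCert
import Cfsg.Agent.M24Geo.Trans

/-! Sextets: every tetrad lies in exactly one, there are 1771, and the stabiliser suborbits. -/

set_option autoImplicit false

namespace Cfsg.Agent.M24Geo

open scoped Pointwise
open Cfsg

theorem smul_mem_sextets {g : Equiv.Perm GolayPt} (hg : g ∈ M24) {S : Finset (Finset GolayPt)}
    (hS : S ∈ sextets) : g • S ∈ sextets := by
  obtain ⟨h1, h2, h3⟩ := hS
  refine ⟨(Finset.card_smul_finset g S).trans h1, fun t ht => ?_, fun t ht u hu hne => ?_⟩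
  · obtain ⟨t', ht', rfl⟩ := Finset.mem_smul_finset.mp ht
    exact (Finset.card_smul_finset g t').trans (h2 t' ht')
  · obtain ⟨t', ht', rfl⟩ := Finset.mem_smul_finset.mp ht
    obtain ⟨u', hu', rfl⟩ := Finset.mem_smul_finset.mp hu
    rw [← Finset.smul_finset_union]
    exact smul_mem_words hg (h3 t' ht' u' hu' fun e => hne (by rw [e]))

theorem sextetKey_canon {k : ℕ} (h : sextetKey k = true) : canonKey 6 k = true := by
  simp only [sextetKey, Bool.and_eq_true] at h
  exact h.1.1

theorem pairsWord_spec : ∀ {L : List ℕ}, pairsWord L = true →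
    L.Pairwise fun a b => ofMask a ∪ ofMask b ∈ octads
  | [], _ => List.Pairwise.nil
  | a :: L, h => by
    rw [pairsWord, Bool.and_eq_true, List.all_eq_true] at h
    refine List.Pairwise.cons (fun b hb => ?_) (pairsWord_spec h.2)
    rw [← ofMask_or]
    exact mem_wordsOfWeight_iff.mpr ⟨_, h.1 b hb, rfl⟩

theorem decSets_sextet {k : ℕ} (h : sextetKey k = true) : decSets 6 k ∈ sextets := by
  simp only [sextetKey, Bool.and_eq_true, List.all_eq_true, beq_iff_eq] at h
  refine ⟨card_decSets h.1.1, fun t ht => ?_, fun t ht u hu hne => ?_⟩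
  · obtain ⟨m, hm, rfl⟩ := mem_decSets.mp ht
    rw [card_ofMask, h.1.2 m hm]
  · obtain ⟨a, ha, rfl⟩ := mem_decSets.mp ht
    obtain ⟨b, hb, rfl⟩ := mem_decSets.mp hu
    have hab : a ≠ b := fun e => hne (by rw [e])
    exact pairwise_apply (fun x y hxy => by rwa [Finset.union_comm]) (pairsWord_spec h.2) ha hb hab

theorem sextet0_key : sextetKey sextet0 = true := by
  rw [← sextet_misc.2.2.2.2]
  exact List.all_eq_true.mp sextet_misc.2.2.1 _ (by simp)

/-- The reference sextet as a set. -/
theorem sextet0_tetrad : ofMask 15 ∈ decSets 6 sextet0 :=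
  mem_decSets.mpr ⟨15, by rw [sextet_misc.1]; simp, rfl⟩

theorem sextet_disjoint {S : Finset (Finset GolayPt)} (hS : S ∈ sextets) {t u : Finset GolayPt}
    (ht : t ∈ S) (hu : u ∈ S) (hne : t ≠ u) : Disjoint t u := by
  rw [← Finset.card_union_eq_card_add_card, hS.2.1 t ht, hS.2.1 u hu]
  exact (hS.2.2 t ht u hu hne).2

/-- A sextet containing the tetrad of the first four positions is the reference sextet. -/
theorem sextet_unique_base {S : Finset (Finset GolayPt)} (hS : S ∈ sextets) (h : ofMask 15 ∈ S) :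
    S = decSets 6 sextet0 := by
  refine Finset.eq_of_subset_of_card_le (fun u hu => ?_)
    (by rw [card_decSets (sextetKey_canon sextet0_key), hS.1])
  by_cases hne : u = ofMask 15
  · exact hne ▸ sextet0_tetrad
  have hd := sextet_disjoint hS h hu (Ne.symm hne)
  obtain ⟨m, hm, hme⟩ := mem_wordsOfWeight_iff.mp (hS.2.2 _ h u hu (Ne.symm hne))
  have hm24 : m < 2 ^ 24 := inCode_lt (by rw [isWord, Bool.and_eq_true] at hm; exact hm.1)
  have hu' : u = ofMask m \ ofMask 15 := by
    rw [hme, Finset.union_sdiff_left, Finset.sdiff_eq_self_of_disjoint hd.symm]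
  have h15 : ofMask 15 ⊆ ofMask m := by rw [hme]; exact Finset.subset_union_left
  have hmem : m ∈ (wordList 8).filter (fun m => m &&& 15 == 15) := by
    refine List.mem_filter.mpr ⟨mem_wordList hm, ?_⟩
    have := (ofMask_subset_iff (by norm_num) hm24).mp h15
    rw [Nat.and_comm] at this
    simpa using this
  have hmem := List.contains_iff_mem.mp (List.all_eq_true.mp sextet_misc.2.1 m hmem)
  have key : ∀ x, 15 &&& x = 0 → x < 2 ^ 24 → x ∈ masksOf 6 sextet0 → m = 15 ||| x →
      u ∈ decSets 6 sextet0 := by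
    intro x hx _ hxm e
    refine mem_decSets.mpr ⟨x, hxm, ?_⟩
    rw [hu', e, ofMask_or, Finset.union_sdiff_left]
    refine (Finset.sdiff_eq_self_of_disjoint ?_).symm
    rw [Finset.disjoint_iff_inter_eq_empty, Finset.inter_comm, ← ofMask_and, hx, ofMask_zero]
  simp only [List.mem_cons, List.not_mem_nil, or_false] at hmem
  have hms := sextet_misc.1
  rcases hmem with e | e | e | e | e <;>
    exact key _ (by decide) (by decide) (by rw [hms]; simp) e

theorem existsUnique_sextet (t : Finset GolayPt) (ht : t.card = 4) :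
    ∃! S : Finset (Finset GolayPt), S ∈ sextets ∧ t ∈ S := by
  obtain ⟨g, hg, hge⟩ := trans_subset t (by omega)
  rw [ht] at hge
  refine ⟨g • decSets 6 sextet0, ⟨smul_mem_sextets hg (decSets_sextet sextet0_key), ?_⟩, ?_⟩
  · rw [← hge]
    exact Finset.smul_mem_smul_finset sextet0_tetrad
  · rintro S ⟨hS, htS⟩
    rw [← inv_smul_eq_iff]
    refine sextet_unique_base (smul_mem_sextets (inv_mem hg) hS) ?_
    have := Finset.smul_mem_smul_finset (a := g⁻¹) htS
    rwa [← hge, inv_smul_smul] at this

theorem sextets_ncard : sextets.ncard = 1771 := by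
  classical
  have hfin : (sextets : Set (Finset (Finset GolayPt))).Finite := Set.toFinite _
  let T : Finset (Finset GolayPt) := Finset.univ.powersetCard 4
  have h := Finset.sum_card_bipartiteAbove_eq_sum_card_bipartiteBelow
    (s := hfin.toFinset) (t := T) (fun S t => t ∈ S)
  have h6 : ∀ S ∈ hfin.toFinset, (T.bipartiteAbove (fun S t => t ∈ S) S).card = 6 := by
    intro S hS
    rw [Set.Finite.mem_toFinset] at hS
    rw [Finset.bipartiteAbove, ← hS.1]
    congr 1
    ext t
    simp only [Finset.mem_filter, T, Finset.mem_powersetCard_univ]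
    exact ⟨fun h => h.2, fun h => ⟨hS.2.1 t h, h⟩⟩
  have h1 : ∀ t ∈ T, (hfin.toFinset.bipartiteBelow (fun S t => t ∈ S) t).card = 1 := by
    intro t ht
    obtain ⟨S, hS, huniq⟩ := existsUnique_sextet t (Finset.mem_powersetCard_univ.mp ht)
    refine Finset.card_eq_one.mpr ⟨S, ?_⟩
    ext X
    simp only [Finset.bipartiteBelow, Finset.mem_filter, Set.Finite.mem_toFinset,
      Finset.mem_singleton]
    exact ⟨fun hX => huniq X hX, fun e => e ▸ hS⟩
  rw [Finset.sum_congr rfl h6, Finset.sum_congr rfl h1, Finset.sum_const, Finset.sum_const,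
    smul_eq_mul, smul_eq_mul, Finset.card_powersetCard, Finset.card_univ,
    show Fintype.card GolayPt = 24 by decide, show Nat.choose 24 4 = 10626 by decide] at h
  rw [Set.ncard_eq_toFinset_card _ hfin]
  omega

theorem sextet_root_keys : ∀ i : Fin 4,
    sextetKey (![sextetRoot0, sextetRoot1, sextetRoot2, sextetRoot3] i) = true := by
  intro i
  have h := List.all_eq_true.mp sextet_misc.2.2.1
  fin_cases i <;> exact h _ (by simp)

theorem sextet_subs : ∀ i : Fin 4, SubOK 6 sextetGens
    (![sextetRoot0, sextetRoot1, sextetRoot2, sextetRoot3] i)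
    (![sextetTree0, sextetTree1, sextetTree2, sextetTree3] i) (![1, 90, 240, 1440] i) := by
  intro i
  fin_cases i
  exacts [sextet_sub0, sextet_sub1, sextet_sub2, sextet_sub3]

theorem sextet_root_vals : ∀ i : Fin 4,
    interSq (decSets 6 sextet0)
      (decSets 6 (![sextetRoot0, sextetRoot1, sextetRoot2, sextetRoot3] i)) =
      (![96, 48, 36, 32] : Fin 4 → ℕ) i := by
  intro i
  rw [interSq_dec (sextetKey_canon sextet0_key) (sextetKey_canon (sextet_root_keys i))]
  have h := sextet_misc.2.2.2.1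
  simp only [List.map_cons, List.map_nil, List.cons.injEq, and_true] at h
  obtain ⟨a, b, c, d⟩ := h
  fin_cases i
  exacts [a, b, c, d]

/-- The family of sextets. -/
def sextetFamily : Family (Finset (Finset GolayPt)) :=
  setFamily sextets (fun _ hg _ hx => smul_mem_sextets hg hx) sextet_stabOK _ _ _ _ (by decide)
    sextet_subs (fun i => decSets_sextet (sextet_root_keys i)) sextet_root_vals
    (by rw [sextets_ncard]; decide) (decSets_sextet sextet0_key) fun S hS => by
      obtain ⟨t, ht⟩ := Finset.card_pos.mp (by rw [hS.1]; norm_num : 0 < S.card)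
      obtain ⟨g, hg, hge⟩ := trans_subset t (by rw [hS.2.1 t ht]; norm_num)
      rw [hS.2.1 t ht] at hge
      refine ⟨g, hg, (existsUnique_sextet t (hS.2.1 t ht)).unique
        ⟨smul_mem_sextets hg (decSets_sextet sextet0_key), ?_⟩ ⟨hS, ht⟩⟩
      rw [← hge]
      exact Finset.smul_mem_smul_finset sextet0_tetrad

theorem sextet_cnts : sextetFamily.cnt 96 = 1 ∧ sextetFamily.cnt 48 = 90 ∧
    sextetFamily.cnt 36 = 240 ∧ sextetFamily.cnt 32 = 1440 := by
  refine ⟨?_, ?_, ?_, ?_⟩ <;> simp [sextetFamily, setFamily, Fin.sum_univ_four]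

theorem sextet_rel_values {S X : Finset (Finset GolayPt)} (hS : S ∈ sextets) (hX : X ∈ sextets) :
    interSq S X ∈ [96, 48, 36, 32] := by
  obtain ⟨g, hg, hge⟩ := sextetFamily.trans_base S hS
  obtain ⟨i, hi⟩ := (classes_eq (fun _ hg _ hx => smul_mem_sextets hg hx) sextet_stabOK _ _ _ _
    (by decide) sextet_subs (fun i => decSets_sextet (sextet_root_keys i)) sextet_root_vals
    (by rw [sextets_ncard]; decide)).1 _ (smul_mem_sextets (inv_mem hg) hX)
  have h : interSq S X = (![96, 48, 36, 32] : Fin 4 → ℕ) i := by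
    rw [hi, ← interSq_smul g (decSets 6 sextet0) (g⁻¹ • X), smul_inv_smul, ← hge]
    rfl
  rw [h]
  fin_cases i <;> simp

theorem sextet_rel_self {S : Finset (Finset GolayPt)} (hS : S ∈ sextets) : interSq S S = 96 := by
  rw [interSq, Finset.sum_congr rfl fun a ha => Finset.sum_eq_single_of_mem a ha fun b hb hne => by
    rw [Finset.disjoint_iff_inter_eq_empty.mp (sextet_disjoint hS ha hb hne.symm),
      Finset.card_empty, zero_pow (by norm_num)]]
  rw [Finset.sum_congr rfl fun a ha => show (a ∩ a).card ^ 2 = 16 by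
    rw [Finset.inter_self, hS.2.1 a ha]; norm_num]
  rw [Finset.sum_const, hS.1]
  rfl

theorem sextet_eq_of_rel {S X : Finset (Finset GolayPt)} (hS : S ∈ sextets) (hX : X ∈ sextets)
    (h : interSq S X = 96) : X = S := by
  obtain ⟨g, _, hgS, hgX⟩ := sextetFamily.stab_trans hS hS hX
    ((sextet_rel_self hS).trans h.symm)
  rw [← hgX, hgS]

theorem sextet_orbits {S : Finset (Finset GolayPt)} (hS : S ∈ sextets) :
    ∃ X₁ ∈ sextets, ∃ X₂ ∈ sextets, ∃ X₃ ∈ sextets,
      (MulAction.orbit (MulAction.stabilizer M24 S) X₁).ncard = 90 ∧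
      (MulAction.orbit (MulAction.stabilizer M24 S) X₂).ncard = 240 ∧
      (MulAction.orbit (MulAction.stabilizer M24 S) X₃).ncard = 1440 ∧
      sextets = {S} ∪ MulAction.orbit (MulAction.stabilizer M24 S) X₁ ∪
        MulAction.orbit (MulAction.stabilizer M24 S) X₂ ∪
        MulAction.orbit (MulAction.stabilizer M24 S) X₃ ∧
      IsCoatom (MulAction.stabilizer M24 S) := by
  obtain ⟨n96, n48, n36, n32⟩ := sextet_cnts
  obtain ⟨X₁, hX₁, e₁⟩ := sextetFamily.exists_related hS (v := 48) (by omega)
  obtain ⟨X₂, hX₂, e₂⟩ := sextetFamily.exists_related hS (v := 36) (by omega)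
  obtain ⟨X₃, hX₃, e₃⟩ := sextetFamily.exists_related hS (v := 32) (by omega)
  refine ⟨X₁, hX₁, X₂, hX₂, X₃, hX₃, ?_, ?_, ?_, ?_, ?_⟩
  · rw [sextetFamily.stab_orbit_ncard hS hX₁, e₁, n48]
  · rw [sextetFamily.stab_orbit_ncard hS hX₂, e₂, n36]
  · rw [sextetFamily.stab_orbit_ncard hS hX₃, e₃, n32]
  · rw [sextetFamily.stab_orbit_eq hS hX₁, sextetFamily.stab_orbit_eq hS hX₂,
      sextetFamily.stab_orbit_eq hS hX₃, e₁, e₂, e₃]
    ext X
    simp only [Set.mem_union, Set.mem_singleton_iff, Set.mem_ofPred_eq]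
    constructor
    · intro hX
      have h := sextet_rel_values hS hX
      simp only [List.mem_cons, List.not_mem_nil, or_false] at h
      rcases h with h | h | h | h
      · exact Or.inl (Or.inl (Or.inl (sextet_eq_of_rel hS hX h)))
      · exact Or.inl (Or.inl (Or.inr ⟨hX, h⟩))
      · exact Or.inl (Or.inr ⟨hX, h⟩)
      · exact Or.inr ⟨hX, h⟩
    · rintro (((rfl | h) | h) | h)
      exacts [hS, h.1, h.1, h.1]
  · refine sextetFamily.isCoatom hS ![96, 48, 36, 32] ![1, 90, 240, 1440] (fun X hX => ?_)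
      (by decide) ?_ ?_ (by decide) (by decide +kernel)
    · have h := sextet_rel_values hS hX
      simp only [List.mem_cons, List.not_mem_nil, or_false] at h
      rcases h with h | h | h | h
      exacts [⟨0, h.symm⟩, ⟨1, h.symm⟩, ⟨2, h.symm⟩, ⟨3, h.symm⟩]
    · exact (sextet_rel_self hS).symm
    · intro i
      fin_cases i
      exacts [n96, n48, n36, n32]

end Cfsg.Agent.M24Geo
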