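import Cfsg.Agent.M24Geo.TrioCert
import Cfsg.Agent.M24Geo.Octad

/-! Trios: there are 3795, and the stabiliser suborbits. -/

set_option autoImplicit false

namespace Cfsg.Agent.M24Geo

open scoped Pointwise
open Cfsg

theorem smul_mem_trios {g : Equiv.Perm GolayPt} (hg : g ∈ M24) {T : Finset (Finset GolayPt)}
    (hT : T ∈ trios) : g • T ∈ trios := by
  obtain ⟨h1, h2, h3⟩ := hT
  refine ⟨(Finset.card_smul_finset g T).trans h1, fun t ht => ?_, fun t ht u hu hne => ?_⟩
  · obtain ⟨t', ht', rfl⟩ := Finset.mem_smul_finset.mp ht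
    exact smul_mem_words hg (h2 t' ht')
  · obtain ⟨t', ht', rfl⟩ := Finset.mem_smul_finset.mp ht
    obtain ⟨u', hu', rfl⟩ := Finset.mem_smul_finset.mp hu
    exact Finset.disjoint_iff_inter_eq_empty.mpr (by
      rw [← Finset.smul_finset_inter, Finset.disjoint_iff_inter_eq_empty.mp
        (h3 t' ht' u' hu' fun e => hne (by rw [e])), Finset.smul_finset_empty])

theorem trioKey_canon {k : ℕ} (h : trioKey k = true) : canonKey 3 k = true := by
  simp only [trioKey, Bool.and_eq_true] at h
  exact h.1.1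

theorem pairsDisj_spec : ∀ {L : List ℕ}, pairsDisj L = true →
    L.Pairwise fun a b => Disjoint (ofMask a) (ofMask b)
  | [], _ => List.Pairwise.nil
  | a :: L, h => by
    rw [pairsDisj, Bool.and_eq_true, List.all_eq_true] at h
    refine List.Pairwise.cons (fun b hb => ?_) (pairsDisj_spec h.2)
    rw [Finset.disjoint_iff_inter_eq_empty, ← ofMask_and, show a &&& b = 0 by simpa using h.1 b hb,
      ofMask_zero]

theorem decSets_trio_of_key {k : ℕ} (h : trioKey k = true) : decSets 3 k ∈ trios := by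
  simp only [trioKey, Bool.and_eq_true, List.all_eq_true] at h
  refine ⟨card_decSets h.1.1, fun t ht => ?_, fun t ht u hu hne => ?_⟩
  · obtain ⟨m, hm, rfl⟩ := mem_decSets.mp ht
    exact mem_wordsOfWeight_iff.mpr ⟨m, h.1.2 m hm, rfl⟩
  · obtain ⟨a, ha, rfl⟩ := mem_decSets.mp ht
    obtain ⟨b, hb, rfl⟩ := mem_decSets.mp hu
    have hab : a ≠ b := fun e => hne (by rw [e])
    exact pairwise_apply (fun _ _ hxy => hxy.symm) (pairsDisj_spec h.2) ha hb hab

theorem trio0_key : trioKey trio0 = true := by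
  rw [← trio_misc.2.2.2.2.2]
  exact List.all_eq_true.mp trio_misc.2.2.2.1 _ (by simp)

theorem third_base {m : ℕ} (hm : isWord 8 m = true) (h : m &&& octad0 = 0) :
    isWord 8 ((octad0 ||| m) ^^^ 16777215) = true ∧
      ∃ k ∈ triosThrough, sameSet (masksOf 3 k) [octad0, m, (octad0 ||| m) ^^^ 16777215] = true := by
  have h' := List.all_eq_true.mp trio_misc.2.2.1 m
    (List.mem_filter.mpr ⟨mem_wordList hm, by simpa [octad0] using h⟩)
  rw [Bool.and_eq_true, List.any_eq_true] at h'
  exact h'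

/-- The complement of two disjoint octads is an octad. -/
theorem third_octad {o o' : Finset GolayPt} (ho : o ∈ octads) (ho' : o' ∈ octads)
    (hd : Disjoint o o') : (o ∪ o')ᶜ ∈ octads := by
  obtain ⟨g, hg, rfl⟩ := octad_trans ho
  obtain ⟨m, hm, hme⟩ := mem_wordsOfWeight_iff.mp (smul_mem_words (inv_mem hg) ho')
  have hdis : m &&& octad0 = 0 := by
    rw [← ofMask_disjoint_iff (by decide), hme, Finset.disjoint_iff_inter_eq_empty,
      ← Finset.card_eq_zero, ← inter_card_smul g, smul_inv_smul, Finset.inter_comm,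
      Finset.disjoint_iff_inter_eq_empty.mp hd, Finset.card_empty]
  have h : g • (ofMask octad0 ∪ ofMask m)ᶜ = (g • ofMask octad0 ∪ o')ᶜ := by
    ext q
    rw [← Finset.inv_smul_mem_iff, Finset.mem_compl, Finset.mem_compl,
      show g • ofMask octad0 ∪ o' = g • (ofMask octad0 ∪ ofMask m) by
        rw [Finset.smul_finset_union, hme, smul_inv_smul], ← Finset.inv_smul_mem_iff]
  rw [← h, ← ofMask_or, ← ofMask_compl]
  exact smul_mem_words hg (mem_wordsOfWeight_iff.mpr ⟨_, (third_base hm hdis).1, rfl⟩)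

theorem trio_through_base {T : Finset (Finset GolayPt)} (hT : T ∈ trios)
    (h : ofMask octad0 ∈ T) : ∃ k ∈ triosThrough, decSets 3 k = T := by
  obtain ⟨b, hb, hne⟩ := Finset.exists_mem_ne (by rw [hT.1]; norm_num : 1 < T.card) (ofMask octad0)
  obtain ⟨m, hm, rfl⟩ := mem_wordsOfWeight_iff.mp (hT.2.1 b hb)
  have hd := hT.2.2 _ hb _ h hne
  rw [ofMask_disjoint_iff (by decide)] at hd
  obtain ⟨-, k, hk, hs⟩ := third_base hm hd
  refine ⟨k, hk, ?_⟩
  -- the third octad is forced
  have hsub : decSets 3 k = {ofMask octad0, ofMask m, (ofMask octad0 ∪ ofMask m)ᶜ} := by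
    rw [← ofMask_or, ← ofMask_compl]
    ext s
    simp only [mem_decSets, sameSet_iff hs, List.mem_cons, List.not_mem_nil, or_false,
      Finset.mem_insert, Finset.mem_singleton]
    constructor
    · rintro ⟨x, rfl | rfl | rfl, rfl⟩ <;> simp
    · rintro (rfl | rfl | rfl)
      exacts [⟨_, Or.inl rfl, rfl⟩, ⟨_, Or.inr (Or.inl rfl), rfl⟩, ⟨_, Or.inr (Or.inr rfl), rfl⟩]
  rw [hsub]
  symm
  refine Finset.eq_of_subset_of_card_le (fun u hu => ?_) ?_
  · simp only [Finset.mem_insert, Finset.mem_singleton]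
    by_cases h1 : u = ofMask octad0
    · exact Or.inl h1
    by_cases h2 : u = ofMask m
    · exact Or.inr (Or.inl h2)
    refine Or.inr (Or.inr (Finset.eq_of_subset_of_card_le (fun p hp => ?_) ?_))
    · rw [Finset.mem_compl, Finset.mem_union, not_or]
      exact ⟨Finset.disjoint_left.mp (hT.2.2 u hu _ h h1) hp,
        Finset.disjoint_left.mp (hT.2.2 u hu _ hb h2) hp⟩
    · rw [Finset.card_compl, Finset.card_union_of_disjoint (hT.2.2 _ h _ hb hne.symm),
        octad0_mem.2, (hT.2.1 _ hb).2, (hT.2.1 u hu).2]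
      decide
  · rw [hT.1]
    exact Finset.card_le_three

theorem triosThrough_key {k : ℕ} (hk : k ∈ triosThrough) :
    trioKey k = true ∧ ofMask octad0 ∈ decSets 3 k := by
  have h := List.all_eq_true.mp trio_misc.2.1 k hk
  simp only [Bool.and_eq_true, List.contains_iff_mem] at h
  exact ⟨h.1, mem_decSets.mpr ⟨_, h.2, rfl⟩⟩

theorem ncard_trios_through {o : Finset GolayPt} (ho : o ∈ octads) :
    {T | T ∈ trios ∧ o ∈ T}.ncard = 15 := by
  obtain ⟨g, hg, rfl⟩ := octad_trans ho
  have himg : {T | T ∈ trios ∧ g • ofMask octad0 ∈ T} =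
      (fun T => g • T) '' (decSets 3 '' {k | k ∈ triosThrough}) := by
    ext T
    simp only [Set.mem_ofPred_eq, Set.mem_image]
    constructor
    · rintro ⟨hT, hoT⟩
      have := Finset.smul_mem_smul_finset (a := g⁻¹) hoT
      rw [inv_smul_smul] at this
      obtain ⟨k, hk, hke⟩ := trio_through_base (smul_mem_trios (inv_mem hg) hT) this
      exact ⟨_, ⟨k, hk, rfl⟩, by rw [hke, smul_inv_smul]⟩
    · rintro ⟨_, ⟨k, hk, rfl⟩, rfl⟩
      exact ⟨smul_mem_trios hg (decSets_trio_of_key (triosThrough_key hk).1),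
        Finset.smul_mem_smul_finset (triosThrough_key hk).2⟩
  rw [himg, Set.ncard_image_of_injective _ (MulAction.injective g),
    Set.InjOn.ncard_image (show Set.InjOn (decSets 3) {k | k ∈ triosThrough} from fun j hj k hk h =>
      decSets_injOn (trioKey_canon (triosThrough_key hj).1) (trioKey_canon (triosThrough_key hk).1) h),
    show {k | k ∈ triosThrough} = (triosThrough.toFinset : Set ℕ) by ext; simp,
    Set.ncard_coe_finset, List.toFinset_card_of_nodup trio_misc.1]
  rfl

theorem trios_ncard : trios.ncard = 3795 := by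
  classical
  have hfin : (trios : Set (Finset (Finset GolayPt))).Finite := Set.toFinite _
  have hoct : (octads : Set (Finset GolayPt)).Finite := Set.toFinite _
  have h := Finset.sum_card_bipartiteAbove_eq_sum_card_bipartiteBelow
    (s := hfin.toFinset) (t := hoct.toFinset) (fun T o => o ∈ T)
  have h3 : ∀ T ∈ hfin.toFinset, (hoct.toFinset.bipartiteAbove (fun T o => o ∈ T) T).card = 3 := by
    intro T hT
    rw [Set.Finite.mem_toFinset] at hT
    rw [Finset.bipartiteAbove, ← hT.1]
    congr 1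
    ext o
    simp only [Finset.mem_filter, Set.Finite.mem_toFinset]
    exact ⟨fun h => h.2, fun h => ⟨hT.2.1 o h, h⟩⟩
  have h15 : ∀ o ∈ hoct.toFinset, (hfin.toFinset.bipartiteBelow (fun T o => o ∈ T) o).card = 15 := by
    intro o ho
    rw [Set.Finite.mem_toFinset] at ho
    rw [← ncard_trios_through ho, ← Set.ncard_coe_finset]
    congr 1
    ext T
    simp [Finset.bipartiteBelow]
  have h759 : hoct.toFinset.card = 759 := by
    rw [← Set.ncard_eq_toFinset_card _ hoct]
    obtain ⟨a, b, c, d, -⟩ := octCnt_values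
    refine (octadFamily.ncard_eq octad0_mem hoct ![8, 4, 2, 0] (fun y hy => ?_) (by decide)).trans ?_
    · rcases octad_inter_values octad0_mem hy with e | e | e | e
      exacts [⟨0, e.symm⟩, ⟨1, e.symm⟩, ⟨2, e.symm⟩, ⟨3, e.symm⟩]
    · simp only [Fin.sum_univ_four, octadFamily, Matrix.cons_val, a, b, c, d]
  rw [Finset.sum_congr rfl h3, Finset.sum_congr rfl h15, Finset.sum_const, Finset.sum_const,
    smul_eq_mul, smul_eq_mul, h759] at h
  rw [Set.ncard_eq_toFinset_card _ hfin]
  omega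

theorem trio0_mem_base : ofMask octad0 ∈ decSets 3 trio0 :=
  mem_decSets.mpr ⟨octad0, by decide +kernel, rfl⟩

/-- The third member of a trio. -/
theorem trio_eq_of_two {T T' : Finset (Finset GolayPt)} (hT : T ∈ trios) (hT' : T' ∈ trios)
    {a b : Finset GolayPt} (ha : a ∈ T) (hb : b ∈ T) (ha' : a ∈ T') (hb' : b ∈ T') (hne : a ≠ b) :
    T = T' := by
  have key : ∀ X ∈ trios, a ∈ X → b ∈ X → ∀ c ∈ X, c ∈ ({a, b, (a ∪ b)ᶜ} : Finset (Finset GolayPt)) := by
    intro X hX haX hbX c hc
    simp only [Finset.mem_insert, Finset.mem_singleton]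
    by_cases h1 : c = a
    · exact Or.inl h1
    by_cases h2 : c = b
    · exact Or.inr (Or.inl h2)
    refine Or.inr (Or.inr (Finset.eq_of_subset_of_card_le (fun p hp => ?_) ?_))
    · rw [Finset.mem_compl, Finset.mem_union, not_or]
      exact ⟨Finset.disjoint_left.mp (hX.2.2 c hc a haX h1) hp,
        Finset.disjoint_left.mp (hX.2.2 c hc b hbX h2) hp⟩
    · rw [Finset.card_compl, Finset.card_union_of_disjoint (hX.2.2 a haX b hbX hne),
        (hX.2.1 a haX).2, (hX.2.1 b hbX).2, (hX.2.1 c hc).2]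
      decide
  have e1 := Finset.eq_of_subset_of_card_le (key T hT ha hb) (by rw [hT.1]; exact Finset.card_le_three)
  have e2 := Finset.eq_of_subset_of_card_le (key T' hT' ha' hb') (by rw [hT'.1]; exact Finset.card_le_three)
  rw [e1, e2]

/-- `M24` is transitive on trios with a marked member. -/
theorem trio_marked_trans {T : Finset (Finset GolayPt)} (hT : T ∈ trios) {a : Finset GolayPt}
    (ha : a ∈ T) : ∃ g ∈ M24, g • decSets 3 trio0 = T ∧ g • ofMask octad0 = a := by
  obtain ⟨g, hg, rfl⟩ := octad_trans (hT.2.1 a ha)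
  have hT' := smul_mem_trios (inv_mem hg) hT
  have ha' : ofMask octad0 ∈ g⁻¹ • T := by
    have := Finset.smul_mem_smul_finset (a := g⁻¹) ha
    rwa [inv_smul_smul] at this
  have h0 := decSets_trio_of_key trio0_key
  obtain ⟨b, hb, hbne⟩ := Finset.exists_mem_ne (by rw [hT'.1]; norm_num : 1 < (g⁻¹ • T).card)
    (ofMask octad0)
  obtain ⟨c, hc, hcne⟩ := Finset.exists_mem_ne (by rw [h0.1]; norm_num : 1 < (decSets 3 trio0).card)
    (ofMask octad0)
  have e : (ofMask octad0 ∩ c).card = (ofMask octad0 ∩ b).card := by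
    rw [Finset.disjoint_iff_inter_eq_empty.mp (h0.2.2 _ trio0_mem_base _ hc hcne.symm),
      Finset.disjoint_iff_inter_eq_empty.mp (hT'.2.2 _ ha' _ hb hbne.symm)]
  obtain ⟨h, hh, hho, hhc⟩ :=
    octadFamily.stab_trans octad0_mem (h0.2.1 c hc) (hT'.2.1 b hb) e
  refine ⟨g * h, mul_mem hg hh, ?_, by rw [mul_smul, hho]⟩
  rw [mul_smul, ← eq_inv_smul_iff]
  refine trio_eq_of_two (smul_mem_trios hh h0) hT' ?_ ?_ ha' hb hbne.symm
  · have := Finset.smul_mem_smul_finset (a := h) trio0_mem_base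
    rwa [hho] at this
  · have := Finset.smul_mem_smul_finset (a := h) hc
    rwa [hhc] at this

theorem trio_root_keys : ∀ i : Fin 5,
    trioKey (![trioRoot0, trioRoot1, trioRoot2, trioRoot3, trioRoot4] i) = true := by
  intro i
  have h := List.all_eq_true.mp trio_misc.2.2.2.1
  fin_cases i <;> exact h _ (by simp)

theorem trio_subs : ∀ i : Fin 5, SubOK 3 trioGens
    (![trioRoot0, trioRoot1, trioRoot2, trioRoot3, trioRoot4] i)
    (![trioTree0, trioTree1, trioTree2, trioTree3, trioTree4] i)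
    (![1, 42, 56, 1008, 2688] i) := by
  intro i
  fin_cases i
  exacts [trio_sub0, trio_sub1, trio_sub2, trio_sub3, trio_sub4]

theorem trio_root_vals : ∀ i : Fin 5,
    interSq (decSets 3 trio0)
      (decSets 3 (![trioRoot0, trioRoot1, trioRoot2, trioRoot3, trioRoot4] i)) =
      (![192, 128, 96, 80, 72] : Fin 5 → ℕ) i := by
  intro i
  rw [interSq_dec (trioKey_canon trio0_key) (trioKey_canon (trio_root_keys i))]
  have h := trio_misc.2.2.2.2.1
  simp only [List.map_cons, List.map_nil, List.cons.injEq, and_true] at h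
  obtain ⟨a, b, c, d, e⟩ := h
  fin_cases i
  exacts [a, b, c, d, e]

/-- The family of trios. -/
def trioFamily : Family (Finset (Finset GolayPt)) :=
  setFamily trios (fun _ hg _ hx => smul_mem_trios hg hx) trio_stabOK _ _ _ _ (by decide)
    trio_subs (fun i => decSets_trio_of_key (trio_root_keys i)) trio_root_vals
    (by rw [trios_ncard]; decide) (decSets_trio_of_key trio0_key) fun T hT => by
      obtain ⟨a, ha⟩ := Finset.card_pos.mp (by rw [hT.1]; norm_num : 0 < T.card)
      obtain ⟨g, hg, h, -⟩ := trio_marked_trans hT ha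
      exact ⟨g, hg, h⟩

theorem trio_cnts : trioFamily.cnt 192 = 1 ∧ trioFamily.cnt 128 = 42 ∧ trioFamily.cnt 96 = 56 ∧
    trioFamily.cnt 80 = 1008 ∧ trioFamily.cnt 72 = 2688 := by
  refine ⟨?_, ?_, ?_, ?_, ?_⟩ <;> simp [trioFamily, setFamily, Fin.sum_univ_five]

theorem trio_rel_values {T X : Finset (Finset GolayPt)} (hT : T ∈ trios) (hX : X ∈ trios) :
    interSq T X ∈ [192, 128, 96, 80, 72] := by
  obtain ⟨g, hg, hge⟩ := trioFamily.trans_base T hT
  obtain ⟨i, hi⟩ := (classes_eq (fun _ hg _ hx => smul_mem_trios hg hx) trio_stabOK _ _ _ _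
    (by decide) trio_subs (fun i => decSets_trio_of_key (trio_root_keys i)) trio_root_vals
    (by rw [trios_ncard]; decide)).1 _ (smul_mem_trios (inv_mem hg) hX)
  have h : interSq T X = (![192, 128, 96, 80, 72] : Fin 5 → ℕ) i := by
    rw [hi, ← interSq_smul g (decSets 3 trio0) (g⁻¹ • X), smul_inv_smul, ← hge]
    rfl
  rw [h]
  fin_cases i <;> simp

theorem trio_rel_self {T : Finset (Finset GolayPt)} (hT : T ∈ trios) : interSq T T = 192 := by
  rw [interSq, Finset.sum_congr rfl fun a ha => Finset.sum_eq_single_of_mem a ha fun b hb hne => by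
    rw [Finset.disjoint_iff_inter_eq_empty.mp (hT.2.2 a ha b hb hne.symm), Finset.card_empty,
      zero_pow (by norm_num)]]
  rw [Finset.sum_congr rfl fun a ha => show (a ∩ a).card ^ 2 = 64 by
    rw [Finset.inter_self, (hT.2.1 a ha).2]; norm_num]
  rw [Finset.sum_const, hT.1]
  rfl

theorem trio_eq_of_rel {T X : Finset (Finset GolayPt)} (hT : T ∈ trios) (hX : X ∈ trios)
    (h : interSq T X = 192) : X = T := by
  obtain ⟨g, _, hgT, hgX⟩ := trioFamily.stab_trans hT hT hX ((trio_rel_self hT).trans h.symm)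
  rw [← hgX, hgT]

theorem trio_orbits {T : Finset (Finset GolayPt)} (hT : T ∈ trios) :
    ∃ X₁ ∈ trios, ∃ X₂ ∈ trios, ∃ X₃ ∈ trios, ∃ X₄ ∈ trios,
      (MulAction.orbit (MulAction.stabilizer M24 T) X₁).ncard = 42 ∧
      (MulAction.orbit (MulAction.stabilizer M24 T) X₂).ncard = 56 ∧
      (MulAction.orbit (MulAction.stabilizer M24 T) X₃).ncard = 1008 ∧
      (MulAction.orbit (MulAction.stabilizer M24 T) X₄).ncard = 2688 ∧
      trios = {T} ∪ MulAction.orbit (MulAction.stabilizer M24 T) X₁ ∪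
        MulAction.orbit (MulAction.stabilizer M24 T) X₂ ∪
        MulAction.orbit (MulAction.stabilizer M24 T) X₃ ∪
        MulAction.orbit (MulAction.stabilizer M24 T) X₄ ∧
      IsCoatom (MulAction.stabilizer M24 T) := by
  obtain ⟨n192, n128, n96, n80, n72⟩ := trio_cnts
  obtain ⟨X₁, hX₁, e₁⟩ := trioFamily.exists_related hT (v := 128) (by omega)
  obtain ⟨X₂, hX₂, e₂⟩ := trioFamily.exists_related hT (v := 96) (by omega)
  obtain ⟨X₃, hX₃, e₃⟩ := trioFamily.exists_related hT (v := 80) (by omega)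
  obtain ⟨X₄, hX₄, e₄⟩ := trioFamily.exists_related hT (v := 72) (by omega)
  refine ⟨X₁, hX₁, X₂, hX₂, X₃, hX₃, X₄, hX₄, ?_, ?_, ?_, ?_, ?_, ?_⟩
  · rw [trioFamily.stab_orbit_ncard hT hX₁, e₁, n128]
  · rw [trioFamily.stab_orbit_ncard hT hX₂, e₂, n96]
  · rw [trioFamily.stab_orbit_ncard hT hX₃, e₃, n80]
  · rw [trioFamily.stab_orbit_ncard hT hX₄, e₄, n72]
  · rw [trioFamily.stab_orbit_eq hT hX₁, trioFamily.stab_orbit_eq hT hX₂,
      trioFamily.stab_orbit_eq hT hX₃, trioFamily.stab_orbit_eq hT hX₄, e₁, e₂, e₃, e₄]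
    ext X
    simp only [Set.mem_union, Set.mem_singleton_iff, Set.mem_ofPred_eq]
    constructor
    · intro hX
      have h := trio_rel_values hT hX
      simp only [List.mem_cons, List.not_mem_nil, or_false] at h
      rcases h with h | h | h | h | h
      · exact Or.inl (Or.inl (Or.inl (Or.inl (trio_eq_of_rel hT hX h))))
      · exact Or.inl (Or.inl (Or.inl (Or.inr ⟨hX, h⟩)))
      · exact Or.inl (Or.inl (Or.inr ⟨hX, h⟩))
      · exact Or.inl (Or.inr ⟨hX, h⟩)
      · exact Or.inr ⟨hX, h⟩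
    · rintro ((((rfl | h) | h) | h) | h)
      exacts [hT, h.1, h.1, h.1, h.1]
  · refine trioFamily.isCoatom hT ![192, 128, 96, 80, 72] ![1, 42, 56, 1008, 2688]
      (fun X hX => ?_) (by decide) ?_ ?_ (by decide) (by decide +kernel)
    · have h := trio_rel_values hT hX
      simp only [List.mem_cons, List.not_mem_nil, or_false] at h
      rcases h with h | h | h | h | h
      exacts [⟨0, h.symm⟩, ⟨1, h.symm⟩, ⟨2, h.symm⟩, ⟨3, h.symm⟩, ⟨4, h.symm⟩]
    · exact (trio_rel_self hT).symm
    · intro i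
      fin_cases i
      exacts [n192, n128, n96, n80, n72]

end Cfsg.Agent.M24Geo
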