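import Cfsg.Agent.Leech.Monomial
import Cfsg.Prelude.Def_SporadicCombinatorics

/-! The stabiliser of the standard cross in `Co0`. -/

set_option autoImplicit false

namespace Cfsg.Agent.M24Geo

open Cfsg

theorem single_eight (j : GolayPt) : (Pi.single j 8 : GolayPt → ℤ) = Leech.cross j := by
  funext p
  simp [Leech.cross, Pi.single_apply]

theorem single_neg_eight (j : GolayPt) : (Pi.single j (-8) : GolayPt → ℤ) = -Leech.cross j := by
  funext p
  simp only [Leech.cross, Pi.single_apply, Pi.neg_apply]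
  split_ifs <;> rfl

theorem mem_stdCross {y : GolayPt → ℤ} :
    y ∈ stdCross ↔ ∃ j, y = Leech.cross j ∨ y = -Leech.cross j := by
  constructor
  · rintro ⟨i, s, rfl | rfl, rfl⟩
    · exact ⟨i, Or.inl (single_eight i)⟩
    · exact ⟨i, Or.inr (single_neg_eight i)⟩
  · rintro ⟨j, rfl | rfl⟩
    · exact ⟨j, 8, Or.inl rfl, (single_eight j).symm⟩
    · exact ⟨j, -8, Or.inr rfl, (single_neg_eight j).symm⟩

/-- The automorphisms mapping the standard cross into itself are the monomial ones. -/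
theorem preserves_stdCross_iff (g : Co0) :
    (∀ v : leechLattice, (v : GolayPt → ℤ) ∈ stdCross →
      ((g • v : leechLattice) : GolayPt → ℤ) ∈ stdCross) ↔
      ∃ σ, ∃ hσ : σ ∈ M24, ∃ c, ∃ hc : c ∈ supports (golayCode : Set (GolayPt → ZMod 2)),
        g = Leech.monomial hσ hc := by
  constructor
  · intro h
    obtain ⟨σ, hσ, c, hc, hg⟩ := Leech.exists_monomial g fun j =>
      mem_stdCross.mp (h (Leech.crossL j) (mem_stdCross.mpr ⟨j, Or.inl rfl⟩))
    exact ⟨σ, hσ, c, hc, Subtype.ext (Equiv.ext fun x => Subtype.ext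
      ((hg x).trans (Leech.monomial_smul hσ hc x).symm))⟩
  · rintro ⟨σ, hσ, c, hc, rfl⟩ v hv
    obtain ⟨j, hj⟩ := mem_stdCross.mp hv
    have key : ((Leech.monomial hσ hc • Leech.crossL j : leechLattice) : GolayPt → ℤ) ∈ stdCross := by
      rw [Leech.monomial_smul_cross, mem_stdCross]
      exact ⟨σ.symm j, by split_ifs <;> simp⟩
    rcases hj with e | e
    · rwa [show v = Leech.crossL j from Subtype.ext e]
    · rw [show v = -Leech.crossL j from Subtype.ext e, Leech.co0_neg, AddSubgroup.coe_neg]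
      obtain ⟨k, hk | hk⟩ := mem_stdCross.mp key
      · exact mem_stdCross.mpr ⟨k, Or.inr (by rw [hk])⟩
      · exact mem_stdCross.mpr ⟨k, Or.inl (by rw [hk, neg_neg])⟩

theorem card_supports_golay :
    Nat.card (supports (golayCode : Set (GolayPt → ZMod 2))) = 4096 := by
  rw [supports, Nat.card_image_of_injective Leech.support₂_injective]
  exact Golay.card_golayCode

theorem card_preserves_stdCross :
    Nat.card {g : Co0 // ∀ v : leechLattice, (v : GolayPt → ℤ) ∈ stdCross →
      ((g • v : leechLattice) : GolayPt → ℤ) ∈ stdCross} = 4096 * 244823040 := by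
  rw [← card_supports_golay, ← Golay.card_M24, ← Nat.card_prod]
  symm
  refine Nat.card_congr (Equiv.ofBijective (fun x => ⟨Leech.monomial x.2.2 x.1.2,
    (preserves_stdCross_iff _).mpr ⟨_, x.2.2, _, x.1.2, rfl⟩⟩) ⟨fun a b h => ?_, fun g => ?_⟩)
  · obtain ⟨h1, h2⟩ := Leech.monomial_injective a.2.2 b.2.2 a.1.2 b.1.2 (congrArg Subtype.val h)
    exact Prod.ext (Subtype.ext h2) (Subtype.ext h1)
  · obtain ⟨σ, hσ, c, hc, e⟩ := (preserves_stdCross_iff g.1).mp g.2
    exact ⟨(⟨c, hc⟩, ⟨σ, hσ⟩), Subtype.ext e.symm⟩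

end Cfsg.Agent.M24Geo
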