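import Cfsg.Agent.M24Geo.Octad

/-! Octads meeting a given octad exactly in a given set of two or four of its points. -/

set_option autoImplicit false

namespace Cfsg.Agent.M24Geo

open scoped Pointwise
open Cfsg

theorem meet_check : [2, 4].all (fun n => (octadTree.keys.filter fun o => o &&& (2 ^ n - 1) == 2 ^ n - 1).all
    fun o => (octadTree.keys.filter fun m => m &&& o == 2 ^ n - 1).length ==
      (bif n == 2 then 16 else 4)) = true := by decide +kernel

theorem octad_meet_count {o : Finset GolayPt} (ho : o ∈ octads) {s : Finset GolayPt} (hs : s ⊆ o)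
    (hk : s.card = 2 ∨ s.card = 4) :
    {o' | o' ∈ octads ∧ o ∩ o' = s}.ncard = bif s.card == 2 then 16 else 4 := by
  obtain ⟨g, hg, hge⟩ := trans_subset s (by omega)
  obtain ⟨k, hkk, hke⟩ := octad_hX _ (smul_mem_words (inv_mem hg) ho)
  have hpow : 2 ^ s.card - 1 < 2 ^ 24 := by rcases hk with h | h <;> rw [h] <;> norm_num
  have hk24 := key_lt octad_keys_word hkk
  have hsub : k &&& (2 ^ s.card - 1) = 2 ^ s.card - 1 := by
    rw [Nat.and_comm]
    refine (ofMask_subset_iff hpow hk24).mp ?_
    rw [hke, ← Finset.smul_finset_subset_smul_finset_iff (a := g), smul_inv_smul, hge]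
    exact hs
  have hcnt := List.all_eq_true.mp (List.all_eq_true.mp meet_check s.card
    (by rcases hk with h | h <;> rw [h] <;> simp)) k
    (List.mem_filter.mpr ⟨hkk, by simpa using hsub⟩)
  rw [beq_iff_eq] at hcnt
  rw [← hcnt, ← List.toFinset_card_of_nodup ((sortedB_nodup octad_cert.sorted).filter _),
    ← Set.ncard_coe_finset]
  have hinj : Set.InjOn (fun m => g • ofMask m)
      (↑(octadTree.keys.filter fun m => m &&& k == 2 ^ s.card - 1).toFinset) := by
    intro a ha b hb h
    simp only [List.coe_toFinset, Set.mem_ofPred_eq, List.mem_filter] at ha hb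
    exact ofMask_inj (key_lt octad_keys_word ha.1) (key_lt octad_keys_word hb.1)
      (MulAction.injective g h)
  rw [← hinj.ncard_image]
  congr 1
  ext o'
  simp only [Set.mem_ofPred_eq, List.coe_toFinset, Set.mem_image, List.mem_filter, beq_iff_eq]
  constructor
  · rintro ⟨ho', hin⟩
    obtain ⟨m, hm, hme⟩ := octad_hX _ (smul_mem_words (inv_mem hg) ho')
    refine ⟨m, ⟨hm, ?_⟩, by rw [hme, smul_inv_smul]⟩
    refine ofMask_inj (Nat.and_lt_two_pow _ hk24) hpow ?_
    rw [ofMask_and, hme, hke, ← Finset.smul_finset_inter, Finset.inter_comm, hin,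
      inv_smul_eq_iff, hge]
  · rintro ⟨m, ⟨hm, he⟩, rfl⟩
    refine ⟨smul_mem_words hg (mem_wordsOfWeight_iff.mpr
      ⟨m, List.all_eq_true.mp octad_keys_word m hm, rfl⟩), ?_⟩
    rw [show o = g • ofMask k by rw [hke, smul_inv_smul], ← Finset.smul_finset_inter,
      Finset.inter_comm, ← ofMask_and, he, hge]

end Cfsg.Agent.M24Geo
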