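import Cfsg.Agent.M24Geo.StabCard
import Cfsg.Agent.M24Geo.Octad

/-!
An octad stabiliser: a regular normal subgroup of order 16 on the complement, and the alternating
group on the octad.
-/

set_option autoImplicit false

namespace Cfsg.Agent.M24Geo

open scoped Pointwise
open Cfsg

/-- The pointwise stabiliser of an octad in `M24`. -/
def octKer (o : Finset GolayPt) : Subgroup (Equiv.Perm GolayPt) :=
  M24 ⊓ fixingSubgroup (Equiv.Perm GolayPt) (o : Set GolayPt)

/-- The setwise stabiliser of an octad in `M24`. -/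
def octStab (o : Finset GolayPt) : Subgroup (Equiv.Perm GolayPt) :=
  M24 ⊓ MulAction.stabilizer (Equiv.Perm GolayPt) o

theorem mem_octKer {o : Finset GolayPt} {g : Equiv.Perm GolayPt} :
    g ∈ octKer o ↔ g ∈ M24 ∧ ∀ x ∈ o, g x = x := by
  rw [octKer, Subgroup.mem_inf, mem_fixingSubgroup_iff]
  exact Iff.rfl

theorem mem_octStab {o : Finset GolayPt} {g : Equiv.Perm GolayPt} :
    g ∈ octStab o ↔ g ∈ M24 ∧ g • o = o := by
  rw [octStab, Subgroup.mem_inf]
  exact Iff.rfl

theorem octKer_le (o : Finset GolayPt) : octKer o ≤ octStab o := by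
  intro g hg
  rw [mem_octKer] at hg
  refine mem_octStab.mpr ⟨hg.1, Finset.eq_of_subset_of_card_le (fun x hx => ?_)
    (Finset.card_smul_finset g o).ge⟩
  obtain ⟨y, hy, rfl⟩ := Finset.mem_smul_finset.mp hx
  rw [Equiv.Perm.smul_def, hg.2 y hy]
  exact hy

theorem wordFun_mem : ∀ w : List ℕ, (∀ i ∈ w, i < 191) →
    ∃ g ∈ M24, ⇑g = Golay.wordFun w := by
  intro w
  induction w with
  | nil => exact fun _ => ⟨1, one_mem _, rfl⟩
  | cons i w ih =>
    intro h
    obtain ⟨g, hg, eg⟩ := ih fun j hj => h j (List.mem_cons_of_mem _ hj)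
    obtain ⟨a, ha, ea⟩ := Golay.node_mem_gen3 i (h i List.mem_cons_self)
    refine ⟨a * g, mul_mem (Golay.gen3_le ha) hg, ?_⟩
    funext p
    rw [Golay.wordFun, ← ea, ← eg]
    rfl

theorem transWords_fix : ∀ w ∈ Golay.transWords.getD 6 [],
    ∀ p ∈ Golay.oct0, Golay.wordFun w p = p := by decide +kernel

theorem basePt_facts : Golay.basePt 6 ∉ Golay.oct0 ∧ ∀ i < 6, Golay.basePt i ∈ Golay.oct0 := by
  decide +kernel

theorem octKer_base_facts :
    (∀ q ∉ Golay.oct0, ∃ k ∈ octKer Golay.oct0, k (Golay.basePt 6) = q) ∧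
      ∀ k ∈ octKer Golay.oct0, k (Golay.basePt 6) = Golay.basePt 6 → k = 1 := by
  constructor
  · intro q hq
    have ht : Golay.IsTarget 6 q := by
      rw [Golay.IsTarget, if_neg (by norm_num), if_neg (by norm_num)]
      exact hq
    obtain ⟨w, hw, he⟩ := Golay.trans_cover 6 (by norm_num) q ht
    obtain ⟨g, hg, eg⟩ :=
      wordFun_mem w fun i hi => (Golay.trans_fix 6 (by norm_num) w hw i hi).1
    refine ⟨g, mem_octKer.mpr ⟨hg, fun x hx => ?_⟩, by rw [eg, he]⟩
    rw [eg]
    exact transWords_fix w hw x hx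
  · intro k hk h6
    rw [mem_octKer] at hk
    rw [← Subgroup.mem_bot, ← Golay.chainStab_seven, Golay.mem_chainStab]
    refine ⟨hk.1, fun j hj => ?_⟩
    rcases Nat.lt_succ_iff_lt_or_eq.mp hj with hj' | rfl
    · exact hk.2 _ (basePt_facts.2 j hj')
    · exact h6

theorem octKer_conj {o : Finset GolayPt} {g k : Equiv.Perm GolayPt} (hg : g ∈ M24)
    (hk : k ∈ octKer o) : g * k * g⁻¹ ∈ octKer (g • o) := by
  rw [mem_octKer] at hk ⊢
  refine ⟨mul_mem (mul_mem hg hk.1) (inv_mem hg), fun x hx => ?_⟩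
  obtain ⟨y, hy, rfl⟩ := Finset.mem_smul_finset.mp hx
  simp [hk.2 y hy]

theorem octKer_facts {o : Finset GolayPt} (ho : o ∈ octads) :
    (∀ p ∉ o, ∀ q ∉ o, ∃ k ∈ octKer o, k p = q) ∧
      ∀ p ∉ o, ∀ k ∈ octKer o, k p = p → k = 1 := by
  obtain ⟨g, hg, rfl⟩ := octadFamily.transitive (Golay.oct0_mem) ho
  have hout : ∀ x, x ∉ g • Golay.oct0 → g⁻¹ x ∉ Golay.oct0 := by
    intro x hx h
    exact hx (Finset.mem_smul_finset.mpr ⟨_, h, g.apply_symm_apply x⟩)
  have htr : ∀ p ∉ g • Golay.oct0, ∀ q ∉ g • Golay.oct0,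
      ∃ k ∈ octKer (g • Golay.oct0), k p = q := by
    intro p hp q hq
    obtain ⟨a, ha, hap⟩ := octKer_base_facts.1 _ (hout p hp)
    obtain ⟨b, hb, hbq⟩ := octKer_base_facts.1 _ (hout q hq)
    refine ⟨g * (b * a⁻¹) * g⁻¹, octKer_conj hg (mul_mem hb (inv_mem ha)), ?_⟩
    simp only [Equiv.Perm.mul_apply]
    rw [show a⁻¹ (g⁻¹ p) = Golay.basePt 6 by rw [← hap]; exact a.symm_apply_apply _, hbq]
    exact g.apply_symm_apply q
  refine ⟨htr, fun p hp k hk hkp => ?_⟩
  obtain ⟨a, ha, hap⟩ := octKer_base_facts.1 _ (hout p hp)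
  have hk' : g⁻¹ * k * g ∈ octKer Golay.oct0 := by
    have h := octKer_conj (inv_mem hg) hk
    rwa [inv_inv, inv_smul_smul] at h
  have h1 : a⁻¹ * (g⁻¹ * k * g) * a = 1 := by
    refine octKer_base_facts.2 _ (mul_mem (mul_mem (inv_mem ha) hk') ha) ?_
    simp only [Equiv.Perm.mul_apply]
    rw [hap, show g (g⁻¹ p) = p from g.apply_symm_apply p, hkp, ← hap]
    exact a.symm_apply_apply _
  have h2 : g⁻¹ * k * g = 1 := by
    rw [show g⁻¹ * k * g = a * (a⁻¹ * (g⁻¹ * k * g) * a) * a⁻¹ by group, h1]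
    group
  rw [show k = g * (g⁻¹ * k * g) * g⁻¹ by group, h2]
  group

theorem exists_not_mem_octad {o : Finset GolayPt} (ho : o ∈ octads) : ∃ p, p ∉ o := by
  by_contra h
  rw [not_exists] at h
  have : o = Finset.univ := Finset.eq_univ_of_forall fun p => not_not.mp (h p)
  have h8 := ho.2
  rw [this] at h8
  exact absurd h8 (by decide)

theorem card_octKer {o : Finset GolayPt} (ho : o ∈ octads) : Nat.card (octKer o) = 16 := by
  obtain ⟨p, hp⟩ := exists_not_mem_octad ho
  have hout : ∀ k : octKer o, (k : Equiv.Perm GolayPt) p ∈ oᶜ := by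
    intro k
    rw [Finset.mem_compl]
    intro h
    have := (mem_octKer.mp k.2).2 _ h
    exact hp ((k : Equiv.Perm GolayPt).injective this ▸ h)
  have hbij : Function.Bijective (fun k : octKer o => (⟨_, hout k⟩ : ↥(oᶜ))) := by
    constructor
    · intro a b h
      have h' : (a : Equiv.Perm GolayPt) p = (b : Equiv.Perm GolayPt) p := congrArg Subtype.val h
      have h1 := (octKer_facts ho).2 p hp _ (mul_mem (inv_mem b.2) a.2) (by
        rw [Equiv.Perm.mul_apply, h']; exact (b : Equiv.Perm GolayPt).symm_apply_apply p)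
      exact Subtype.ext (inv_mul_eq_one.mp h1).symm
    · intro q
      obtain ⟨k, hk, hkq⟩ := (octKer_facts ho).1 p hp q (Finset.mem_compl.mp q.2)
      exact ⟨⟨k, hk⟩, Subtype.ext hkq⟩
  rw [Nat.card_eq_of_bijective _ hbij, Nat.card_eq_fintype_card, Fintype.card_coe,
    Finset.card_compl, ho.2]
  decide

theorem card_octStab {o : Finset GolayPt} (ho : o ∈ octads) : Nat.card (octStab o) = 322560 := by
  have h := octadFamily.card_stab ho (N := 759) (by exact Golay.ncard_octads)
  change Nat.card (octStab o) * 759 = 244823040 at h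
  omega

/-- Restriction of an element of the stabiliser to the octad. -/
def restrictHom (o : Finset GolayPt) : octStab o →* Equiv.Perm ↥o where
  toFun g := (g : Equiv.Perm GolayPt).subtypePerm fun x => by
    obtain ⟨-, h⟩ := mem_octStab.mp g.2
    exact Eq.subst (motive := fun t => (g : Equiv.Perm GolayPt) x ∈ t ↔ x ∈ o) h
      (Finset.smul_mem_smul_finset_iff (g : Equiv.Perm GolayPt))
  map_one' := Equiv.ext fun _ => rfl
  map_mul' _ _ := Equiv.ext fun _ => rfl

theorem card_octStab_restrict_ker {o : Finset GolayPt} (ho : o ∈ octads) :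
    Nat.card (restrictHom o).ker = 16 := by
  rw [← card_octKer ho]
  refine Nat.card_congr
    { toFun := fun g => ⟨(g : octStab o), mem_octKer.mpr ⟨(mem_octStab.mp g.1.2).1, fun x hx =>
        congrArg Subtype.val (Equiv.ext_iff.mp (MonoidHom.mem_ker.mp g.2) ⟨x, hx⟩)⟩⟩
      invFun := fun g => ⟨⟨g.1, octKer_le o g.2⟩, MonoidHom.mem_ker.mpr (Equiv.ext fun x =>
        Subtype.ext ((mem_octKer.mp g.2).2 x.1 x.2))⟩
      left_inv := fun _ => rfl
      right_inv := fun _ => rfl }

theorem restrictHom_range {o : Finset GolayPt} (ho : o ∈ octads) :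
    (restrictHom o).range = alternatingGroup ↥o := by
  refine Equiv.Perm.eq_alternatingGroup_of_index_eq_two ?_
  have h := Subgroup.card_mul_index (restrictHom o).ker
  rw [Subgroup.index_ker, card_octStab_restrict_ker ho, card_octStab ho] at h
  have h2 := Subgroup.card_mul_index (restrictHom o).range
  rw [Nat.card_perm, Nat.card_eq_fintype_card (α := ↥o), Fintype.card_coe, ho.2] at h2
  have h8 : Nat.factorial 8 = 40320 := rfl
  rw [h8, show Nat.card (restrictHom o).range = 20160 by omega] at h2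
  omega

theorem induced_alternating {o : Finset GolayPt} (ho : o ∈ octads) :
    {e : Equiv.Perm ↥o | ∃ g : Equiv.Perm GolayPt, g ∈ M24 ∧
      ∃ h : (∀ x, g x ∈ o ↔ x ∈ o), g.subtypePerm h = e} =
      (alternatingGroup ↥o : Set (Equiv.Perm ↥o)) := by
  rw [← restrictHom_range ho]
  ext e
  simp only [Set.mem_ofPred_eq, SetLike.mem_coe, MonoidHom.mem_range]
  constructor
  · rintro ⟨g, hg, h, rfl⟩
    refine ⟨⟨g, mem_octStab.mpr ⟨hg, ?_⟩⟩, rfl⟩
    refine Finset.eq_of_subset_of_card_le (fun x hx => ?_) (Finset.card_smul_finset g o).ge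
    obtain ⟨y, hy, rfl⟩ := Finset.mem_smul_finset.mp hx
    exact (h y).mpr hy
  · rintro ⟨g, rfl⟩
    refine ⟨g.1, (mem_octStab.mp g.2).1, fun x => ?_, rfl⟩
    exact Eq.subst (motive := fun t => (g : Equiv.Perm GolayPt) x ∈ t ↔ x ∈ o) (mem_octStab.mp g.2).2
      (Finset.smul_mem_smul_finset_iff (g : Equiv.Perm GolayPt))

theorem octad_stab_splits {o : Finset GolayPt} (ho : o ∈ octads) {p : GolayPt} (hp : p ∉ o) :
    octKer o ⊓ (octStab o ⊓ MulAction.stabilizer (Equiv.Perm GolayPt) p) = ⊥ ∧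
      octKer o ⊔ (octStab o ⊓ MulAction.stabilizer (Equiv.Perm GolayPt) p) = octStab o ∧
      Nonempty (↥(octStab o ⊓ MulAction.stabilizer (Equiv.Perm GolayPt) p) ≃*
        alternatingGroup (Fin 8)) := by
  set H := octStab o ⊓ MulAction.stabilizer (Equiv.Perm GolayPt) p
  have hbot : octKer o ⊓ H = ⊥ := by
    rw [eq_bot_iff]
    intro k hk
    exact Subgroup.mem_bot.mpr ((octKer_facts ho).2 p hp k hk.1 hk.2.2)
  have hdec : ∀ g ∈ octStab o, ∃ k ∈ octKer o, k * g ∈ H := by
    intro g hg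
    have hgp : g p ∉ o := by
      intro h
      have := (mem_octStab.mp hg).2
      rw [← this] at h
      exact hp ((Finset.smul_mem_smul_finset_iff g).mp h)
    obtain ⟨k, hk, hkq⟩ := (octKer_facts ho).1 (g p) hgp p hp
    exact ⟨k, hk, mul_mem (octKer_le o hk) hg, hkq⟩
  refine ⟨hbot, le_antisymm (sup_le (octKer_le o) inf_le_left) (fun g hg => ?_), ?_⟩
  · obtain ⟨k, hk, hkg⟩ := hdec g hg
    rw [show g = k⁻¹ * (k * g) by group]
    exact mul_mem (Subgroup.mem_sup_left (inv_mem hk)) (Subgroup.mem_sup_right hkg)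
  · let φ : H →* Equiv.Perm ↥o := (restrictHom o).comp (Subgroup.inclusion inf_le_left)
    have hinj : Function.Injective φ := by
      rw [injective_iff_map_eq_one]
      intro g hg
      have : (g : Equiv.Perm GolayPt) ∈ octKer o ⊓ H :=
        ⟨mem_octKer.mpr ⟨(mem_octStab.mp g.2.1).1, fun x hx =>
          congrArg Subtype.val (Equiv.ext_iff.mp hg ⟨x, hx⟩)⟩, g.2⟩
      rw [hbot] at this
      exact Subtype.ext this
    have hrange : φ.range = alternatingGroup ↥o := by
      rw [← restrictHom_range ho]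
      ext e
      constructor
      · rintro ⟨g, rfl⟩
        exact ⟨_, rfl⟩
      · rintro ⟨g, rfl⟩
        obtain ⟨k, hk, hkg⟩ := hdec g g.2
        refine ⟨⟨_, hkg⟩, Equiv.ext fun x => Subtype.ext ?_⟩
        show k ((g : Equiv.Perm GolayPt) x) = (g : Equiv.Perm GolayPt) x
        refine (mem_octKer.mp hk).2 _ ?_
        exact Eq.subst (motive := fun t => (g : Equiv.Perm GolayPt) x.1 ∈ t) (mem_octStab.mp g.2).2
          (Finset.smul_mem_smul_finset x.2)
    exact ⟨((MonoidHom.ofInjective hinj).trans (MulEquiv.subgroupCongr hrange)).trans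
      (Equiv.altCongrHom (Finset.equivFinOfCardEq ho.2))⟩

end Cfsg.Agent.M24Geo
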