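import Cfsg.Agent.M24Geo.Family

/-! Families of subsets packed in one number, and their pairwise invariant. -/

set_option autoImplicit false

namespace Cfsg.Agent.M24Geo

open scoped Pointwise
open Cfsg

/-- Invariant of two families of subsets: the sum of the squared intersection sizes. -/
def interSq (X Y : Finset (Finset GolayPt)) : ℕ := ∑ a ∈ X, ∑ b ∈ Y, (a ∩ b).card ^ 2

theorem interSq_smul (g : Equiv.Perm GolayPt) (X Y : Finset (Finset GolayPt)) :
    interSq (g • X) (g • Y) = interSq X Y := by
  have key : ∀ (Z : Finset (Finset GolayPt)) (f : Finset GolayPt → ℕ),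
      ∑ a ∈ g • Z, f a = ∑ a ∈ Z, f (g • a) := fun Z f => by
    rw [Finset.smul_finset_def, Finset.sum_image (MulAction.injective g).injOn]
  simp only [interSq, key, ← Finset.smul_finset_inter, Finset.card_smul_finset]

/-- A canonical key: strictly increasing masks. -/
def canonKey (n k : ℕ) : Bool := sortedB (masksOf n k) && pack (masksOf n k) == k

/-- The invariant on keys, relative to a list of masks. -/
def interSqKey (L : List ℕ) (n k : ℕ) : ℕ :=
  (L.map fun a => ((masksOf n k).map fun b => popc (a &&& b) ^ 2).sum).sum

theorem decSets_sum {n k : ℕ} (h : canonKey n k = true) {M : Type} [AddCommMonoid M]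
    (f : Finset GolayPt → M) :
    ∑ a ∈ decSets n k, f a = ((masksOf n k).map fun a => f (ofMask a)).sum := by
  rw [canonKey, Bool.and_eq_true] at h
  rw [decSets, Finset.sum_image fun a ha b hb e => ofMask_inj
      (masksOf_lt n k a (List.mem_toFinset.mp ha)) (masksOf_lt n k b (List.mem_toFinset.mp hb)) e,
    List.sum_toFinset _ (sortedB_nodup h.1)]

theorem interSq_dec {n j k : ℕ} (hj : canonKey n j = true) (hk : canonKey n k = true) :
    interSq (decSets n j) (decSets n k) = interSqKey (masksOf n j) n k := by
  rw [interSq, decSets_sum hj, interSqKey]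
  congr 1
  refine List.map_congr_left fun a _ => ?_
  rw [decSets_sum hk]
  congr 1
  refine List.map_congr_left fun b _ => ?_
  rw [← ofMask_and, card_ofMask]

theorem card_decSets {n k : ℕ} (h : canonKey n k = true) : (decSets n k).card = n := by
  have hlen : ∀ m j, (masksOf m j).length = m := by
    intro m
    induction m with
    | zero => simp [masksOf]
    | succ m ih => intro j; simp [masksOf, ih]
  rw [Finset.card_eq_sum_ones, decSets_sum h, List.map_const', List.sum_replicate, hlen]
  simp

theorem decSets_injOn {n j k : ℕ} (hj : canonKey n j = true) (hk : canonKey n k = true)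
    (h : decSets n j = decSets n k) : j = k := by
  simp only [canonKey, Bool.and_eq_true, beq_iff_eq] at hj hk
  rw [← hj.2, ← hk.2]
  congr 1
  refine (sortedB_pairwise hj.1).eq_of_mem_iff (sortedB_pairwise hk.1) fun m => ?_
  constructor <;> intro hm
  · have := mem_decSets.mpr ⟨m, hm, rfl⟩
    rw [h] at this
    obtain ⟨m', hm', e⟩ := mem_decSets.mp this
    rwa [← ofMask_inj (masksOf_lt n k m' hm') (masksOf_lt n j m hm) e]
  · have := mem_decSets.mpr ⟨m, hm, rfl⟩
    rw [← h] at this
    obtain ⟨m', hm', e⟩ := mem_decSets.mp this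
    rwa [← ofMask_inj (masksOf_lt n j m' hm') (masksOf_lt n k m hm) e]

/-- A set all of whose members are decodings of keys, by counting. -/
theorem exists_key_of_ncard {n : ℕ} {keys : List ℕ} (hnd : keys.Nodup)
    (hcanon : ∀ k ∈ keys, canonKey n k = true) {X : Set (Finset (Finset GolayPt))}
    (hmem : ∀ k ∈ keys, decSets n k ∈ X) (hcard : X.ncard ≤ keys.length) :
    ∀ x ∈ X, ∃ k ∈ keys, decSets n k = x := by
  intro x hx
  have hsub : decSets n '' {k | k ∈ keys} ⊆ X := by
    rintro _ ⟨k, hk, rfl⟩
    exact hmem k hk
  have hc : (decSets n '' {k | k ∈ keys}).ncard = keys.length := by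
    rw [Set.InjOn.ncard_image (show Set.InjOn (decSets n) {k | k ∈ keys} from
        fun j hj k hk h => decSets_injOn (hcanon j hj) (hcanon k hk) h),
      show {k | k ∈ keys} = (keys.toFinset : Set ℕ) by ext; simp, Set.ncard_coe_finset,
      List.toFinset_card_of_nodup hnd]
  rw [← Set.eq_of_subset_of_ncard_le hsub (hc ▸ hcard) (Set.toFinite _)] at hx
  exact hx

end Cfsg.Agent.M24Geo
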