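import Cfsg.Agent.M24Geo.SetFam

/-!
Families of packed sets given by one orbit certificate for each orbit of a stabiliser: the class
sizes are the numbers of keys, so no invariant has to be evaluated at the keys.
-/

set_option autoImplicit false

namespace Cfsg.Agent.M24Geo

open scoped Pointwise
open Cfsg

/-- Fast image of a mask. -/
def actF : List ℕ → ℕ → ℕ
  | [], _ => 0
  | a :: l, m => bif Nat.beq (m % 2) 1 then Nat.lor (2 ^ a) (actF l (m / 2)) else actF l (m / 2)

theorem actF_eq_aux (l : List ℕ) : ∀ k m, actF l (m / 2 ^ k) = actFrom l k m := by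
  induction l with
  | nil => intro k m; rfl
  | cons a l ih =>
    intro k m
    have hb : Nat.beq (m / 2 ^ k % 2) 1 = m.testBit k := by
      rw [Nat.testBit_eq_decide_div_mod_eq, Bool.eq_iff_iff, Nat.beq_eq, decide_eq_true_eq]
    rw [actF, actFrom, Nat.div_div_eq_div_mul, ← pow_succ, ih (k + 1) m, hb]
    rfl

theorem actF_eq (l : List ℕ) (m : ℕ) : actF l m = actL l m := by
  simpa [actL] using actF_eq_aux l 0 m

/-- Membership by primitive comparisons. -/
def memF : ℕ → List ℕ → Bool
  | _, [] => false
  | x, a :: l => Nat.beq x a || memF x l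

theorem memF_iff (x : ℕ) : ∀ l : List ℕ, memF x l = true ↔ x ∈ l
  | [] => by simp [memF]
  | a :: l => by rw [memF, Bool.or_eq_true, Nat.beq_eq, memF_iff x l, List.mem_cons]

/-- Mutual inclusion, fast version. -/
def sameSetF (a b : List ℕ) : Bool := (a.all fun x => memF x b) && b.all fun x => memF x a

/-- Step on packed families, fast version. -/
def stepSetsF (n : ℕ) (l : List ℕ) (p k : ℕ) : Bool :=
  sameSetF ((masksOf n p).map (actF l)) (masksOf n k)

theorem stepSetsF_sound (n : ℕ) : StepSound (decSets n) (stepSetsF n) := by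
  intro l p k hl h
  refine stepSets_sound n l p k hl ?_
  simp only [stepSetsF, sameSetF, show actF l = actL l from funext (actF_eq l), Bool.and_eq_true,
    List.all_eq_true, memF_iff] at h
  simp only [stepSets, sameSet, Bool.and_eq_true, List.all_eq_true, List.contains_iff_mem]
  exact h

theorem pairwise_apply {α : Type} {R : α → α → Prop} (hR : ∀ a b, R a b → R b a) :
    ∀ {L : List α}, L.Pairwise R → ∀ {a b : α}, a ∈ L → b ∈ L → a ≠ b → R a b
  | [], _, a, b, ha, _, _ => absurd ha (List.not_mem_nil)
  | x :: L, h, a, b, ha, hb, hne => by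
    rw [List.pairwise_cons] at h
    rcases List.mem_cons.mp ha with rfl | ha' <;> rcases List.mem_cons.mp hb with rfl | hb'
    · exact absurd rfl hne
    · exact h.1 b hb'
    · exact hR _ _ (h.1 a ha')
    · exact pairwise_apply hR h.2 ha' hb' hne

/-- The kernel-checked facts about one orbit of a stabiliser. -/
structure SubOK (n : ℕ) (gens : List (List ℕ)) (r : ℕ) (T : OT) (N : ℕ) : Prop where
  check : T.check (stepSetsF n) gens [r] = true
  canon : T.keys.all (canonKey n) = true
  sorted : sortedB T.keys = true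
  len : T.keys.length = N
  root : (T.find r).isSome = true

/-- The kernel-checked facts about the stabiliser of the base object. -/
structure StabOK (n : ℕ) (gens : List (List ℕ)) (root : ℕ) : Prop where
  auts : gens.all autL = true
  fixes : (gens.all fun l => stepSetsF n l root root) = true

namespace SubOK

variable {n : ℕ} {gens : List (List ℕ)} {root r : ℕ} {T : OT} {N : ℕ}

theorem key_of_root (C : SubOK n gens r T N) : r ∈ T.keys := OT.mem_keys_of_isSome C.root

theorem canon_key (C : SubOK n gens r T N) {k : ℕ} (hk : k ∈ T.keys) : canonKey n k = true :=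
  List.all_eq_true.mp C.canon k hk

theorem reach (C : SubOK n gens r T N) (K : StabOK n gens root) {k : ℕ} (hk : k ∈ T.keys) :
    ∃ g ∈ M24, g • decSets n root = decSets n root ∧ g • decSets n r = decSets n k := by
  obtain ⟨r', hr', g, hg, hge⟩ := orbit_cert (stepSetsF_sound n) C.check K.auts _
    (gens_le_stab (stepSetsF_sound n) K.auts K.fixes) k hk
  obtain rfl : r' = r := List.mem_singleton.mp hr'
  exact ⟨g, hg.1, MulAction.mem_stabilizer_iff.mp hg.2, hge⟩

theorem image_ncard (C : SubOK n gens r T N) : (decSets n '' {k | k ∈ T.keys}).ncard = N := by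
  rw [Set.InjOn.ncard_image (show Set.InjOn (decSets n) {k | k ∈ T.keys} from
      fun j hj k hk h => decSets_injOn (C.canon_key hj) (C.canon_key hk) h),
    show {k | k ∈ T.keys} = (T.keys.toFinset : Set ℕ) by ext; simp, Set.ncard_coe_finset,
    List.toFinset_card_of_nodup (sortedB_nodup C.sorted), C.len]

end SubOK

/-- The classes of the invariant are exactly the certified orbits, by counting. -/
theorem classes_eq {n m root : ℕ} {X : Set (Finset (Finset GolayPt))}
    (smul_mem : ∀ g ∈ M24, ∀ x ∈ X, g • x ∈ X) {gens : List (List ℕ)} (K : StabOK n gens root)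
    (r : Fin m → ℕ) (T : Fin m → OT) (v N : Fin m → ℕ) (hinj : Function.Injective v)
    (C : ∀ i, SubOK n gens (r i) (T i) (N i)) (hroot : ∀ i, decSets n (r i) ∈ X)
    (hv : ∀ i, interSq (decSets n root) (decSets n (r i)) = v i) (htotal : X.ncard ≤ ∑ i, N i) :
    (∀ x ∈ X, ∃ i, v i = interSq (decSets n root) x) ∧
      ∀ i, {x ∈ X | interSq (decSets n root) x = v i} = decSets n '' {k | k ∈ (T i).keys} ∧
        {x ∈ X | interSq (decSets n root) x = v i}.ncard = N i := by
  classical
  have hkey : ∀ i, ∀ k ∈ (T i).keys,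
      decSets n k ∈ X ∧ interSq (decSets n root) (decSets n k) = v i := by
    intro i k hk
    obtain ⟨g, hg, hgr, hge⟩ := (C i).reach K hk
    refine ⟨hge ▸ smul_mem g hg _ (hroot i), ?_⟩
    rw [← hv i, ← interSq_smul g (decSets n root) (decSets n (r i)), hgr, hge]
  let A : Fin m → Set (Finset (Finset GolayPt)) := fun i => decSets n '' {k | k ∈ (T i).keys}
  have hsub : (⋃ i, A i) ⊆ X := by
    refine Set.iUnion_subset fun i => ?_
    rintro _ ⟨k, hk, rfl⟩
    exact (hkey i k hk).1
  have hdisj : Pairwise (Function.onFun Disjoint A) := by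
    intro i j hij
    refine Set.disjoint_left.mpr ?_
    rintro _ ⟨k, hk, rfl⟩ ⟨k', hk', he⟩
    exact hij (hinj (by rw [← (hkey i k hk).2, ← he, (hkey j k' hk').2]))
  have hcard : (⋃ i, A i).ncard = ∑ i, N i := by
    rw [Set.ncard_iUnion_of_finite (fun i => Set.toFinite _) hdisj, finsum_eq_sum_of_fintype]
    exact Finset.sum_congr rfl fun i _ => (C i).image_ncard
  have heq : (⋃ i, A i) = X := Set.eq_of_subset_of_ncard_le hsub (hcard ▸ htotal) (Set.toFinite _)
  have hclass : ∀ i, {x ∈ X | interSq (decSets n root) x = v i} = A i := by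
    intro i
    ext x
    constructor
    · rintro ⟨hx, hxv⟩
      rw [← heq, Set.mem_iUnion] at hx
      obtain ⟨j, k, hk, rfl⟩ := hx
      obtain rfl : j = i := hinj (by rw [← (hkey j k hk).2, hxv])
      exact ⟨k, hk, rfl⟩
    · rintro ⟨k, hk, rfl⟩
      exact hkey i k hk
  refine ⟨fun x hx => ?_, fun i => ⟨hclass i, by rw [hclass i]; exact (C i).image_ncard⟩⟩
  rw [← heq, Set.mem_iUnion] at hx
  obtain ⟨i, k, hk, rfl⟩ := hx
  exact ⟨i, ((hkey i k hk).2).symm⟩

/-- A family of packed sets from per-orbit certificates. -/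
def setFamily {n m root : ℕ} (X : Set (Finset (Finset GolayPt)))
    (smul_mem : ∀ g ∈ M24, ∀ x ∈ X, g • x ∈ X) {gens : List (List ℕ)} (K : StabOK n gens root)
    (r : Fin m → ℕ) (T : Fin m → OT) (v N : Fin m → ℕ) (hinj : Function.Injective v)
    (C : ∀ i, SubOK n gens (r i) (T i) (N i)) (hroot : ∀ i, decSets n (r i) ∈ X)
    (hv : ∀ i, interSq (decSets n root) (decSets n (r i)) = v i) (htotal : X.ncard ≤ ∑ i, N i)
    (base_mem : decSets n root ∈ X) (trans_base : ∀ x ∈ X, ∃ g ∈ M24, g • decSets n root = x) :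
    Family (Finset (Finset GolayPt)) where
  X := X
  R := interSq
  cnt u := ∑ i, if v i = u then N i else 0
  smul_mem := smul_mem
  R_smul g _ := interSq_smul g
  base := decSets n root
  base_mem := base_mem
  trans_base := trans_base
  separates y hy z hz h := by
    obtain ⟨hval, hcl⟩ := classes_eq smul_mem K r T v N hinj C hroot hv htotal
    obtain ⟨i, hi⟩ := hval y hy
    have hy' : y ∈ {x ∈ X | interSq (decSets n root) x = v i} := ⟨hy, hi.symm⟩
    have hz' : z ∈ {x ∈ X | interSq (decSets n root) x = v i} := ⟨hz, h ▸ hi.symm⟩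
    rw [(hcl i).1] at hy' hz'
    obtain ⟨k, hk, rfl⟩ := hy'
    obtain ⟨k', hk', rfl⟩ := hz'
    obtain ⟨g, hg, hgr, hge⟩ := (C i).reach K hk
    obtain ⟨g', hg', hgr', hge'⟩ := (C i).reach K hk'
    refine ⟨g' * g⁻¹, mul_mem hg' (inv_mem hg), ?_, ?_⟩
    · rw [mul_smul, inv_smul_eq_iff.mpr hgr.symm, hgr']
    · rw [← hge, mul_smul, inv_smul_smul, hge']
  count_base u := by
    obtain ⟨hval, hcl⟩ := classes_eq smul_mem K r T v N hinj C hroot hv htotal
    by_cases hu : ∃ i, v i = u
    · obtain ⟨i, rfl⟩ := hu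
      rw [(hcl i).2, Finset.sum_eq_single_of_mem i (Finset.mem_univ _)
        fun j _ hj => if_neg fun e => hj (hinj e), if_pos rfl]
    · rw [Finset.sum_eq_zero fun j _ => if_neg fun e => hu ⟨j, e⟩]
      convert Set.ncard_empty (α := Finset (Finset GolayPt))
      rw [Set.eq_empty_iff_forall_notMem]
      rintro x ⟨hx, e⟩
      obtain ⟨i, hi⟩ := hval x hx
      exact hu ⟨i, hi.trans e⟩

end Cfsg.Agent.M24Geo
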