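import Cfsg.Agent.M24Geo.SetFamOrbits
import Cfsg.Agent.M24Geo.DataSextet

/-! Kernel checks of the certificates for the orbits of a sextet stabiliser on sextets. -/

set_option autoImplicit false
set_option Elab.async false

namespace Cfsg.Agent.M24Geo

open Cfsg

/-- The reference sextet. -/
def sextet0 : ℕ := 11346418193321819767734968736706494159912975

/-- All unions of two listed masks are octads. -/
def pairsWord : List ℕ → Bool
  | [] => true
  | a :: L => (L.all fun b => isWord 8 (a ||| b)) && pairsWord L

/-- A key of a sextet. -/
def sextetKey (k : ℕ) : Bool :=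
  canonKey 6 k && ((masksOf 6 k).all fun m => popc m == 4) && pairsWord (masksOf 6 k)

theorem sextet_stabOK : StabOK 6 sextetGens sextet0 := ⟨by decide +kernel, by decide +kernel⟩

theorem sextet_sub0 : SubOK 6 sextetGens sextetRoot0 sextetTree0 1 :=
  ⟨by decide +kernel, by decide +kernel, by decide +kernel, by decide +kernel, by decide +kernel⟩

theorem sextet_sub1 : SubOK 6 sextetGens sextetRoot1 sextetTree1 90 :=
  ⟨by decide +kernel, by decide +kernel, by decide +kernel, by decide +kernel, by decide +kernel⟩

theorem sextet_sub2 : SubOK 6 sextetGens sextetRoot2 sextetTree2 240 :=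
  ⟨by decide +kernel, by decide +kernel, by decide +kernel, by decide +kernel, by decide +kernel⟩

theorem sextet_sub3 : SubOK 6 sextetGens sextetRoot3 sextetTree3 1440 :=
  ⟨by decide +kernel, by decide +kernel, by decide +kernel, by decide +kernel, by decide +kernel⟩

theorem sextet_misc : masksOf 6 sextet0 = [15, 294992, 537088, 2165760, 5243264, 8536096] ∧
    ((wordList 8).filter fun m => m &&& 15 == 15).all (fun m =>
      [15 ||| 294992, 15 ||| 537088, 15 ||| 2165760, 15 ||| 5243264, 15 ||| 8536096].contains m) = true ∧
    [sextetRoot0, sextetRoot1, sextetRoot2, sextetRoot3].all sextetKey = true ∧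
    [sextetRoot0, sextetRoot1, sextetRoot2, sextetRoot3].map
      (fun k => interSqKey (masksOf 6 sextet0) 6 k) = [96, 48, 36, 32] ∧
    sextetRoot0 = sextet0 := by
  decide +kernel

end Cfsg.Agent.M24Geo
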