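import Cfsg.Agent.M24Geo.StabLists
import Cfsg.Agent.M24Geo.Sextet
import Cfsg.Agent.M24Geo.DataSextetStab

/-!
The stabiliser of a sextet: the symmetric group on the tetrads, kernel of order 192, and a normal
elementary abelian subgroup of order 64.
-/

set_option autoImplicit false

namespace Cfsg.Agent.M24Geo

open scoped Pointwise
open Cfsg

attribute [local irreducible] decSets

/-- The masks of the reference sextet. -/
def sextetMasks : List ℕ := [15, 294992, 537088, 2165760, 5243264, 8536096]

/-- The listed elements fixing each tetrad. -/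
def sextetKer : List (List ℕ) := sextetKerInv ++ sextetKerRest

theorem sextetStab_check :
    sextetKer.all (fixEach sextetMasks) = true ∧ sextetKer.Nodup ∧ sextetKer.length = 192 ∧
    sextetKerInv.length = 64 ∧ sextetKerInv.contains idL = true ∧
    sextetKerInv.all (fun l => compL l l == idL) = true ∧
    sextetKerRest.all (fun l => validL (compL l l) && (compL l l != idL)) = true ∧
    sextetKerInv.all (fun a => sextetKerInv.all fun b => sextetKerInv.contains (compL a b)) = true ∧
    (sextetMasks.all fun a => sextetMasks.all fun b => a == b || sextetSwaps.any fun e =>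
      autL e.2 && sextetMasks.all fun m => actL e.2 m == bif m == a then b else bif m == b then a else m)
      = true := by decide +kernel

theorem sextet0_members : ∀ t, t ∈ decSets 6 sextet0 ↔ ∃ m ∈ sextetMasks, ofMask m = t := by
  intro t
  rw [mem_decSets, sextet_misc.1]
  rfl

theorem sextetKer_mem {l : List ℕ} (hl : l ∈ sextetKer) :
    ∃ g : MulAction.stabilizer M24 (decSets 6 sextet0),
      g ∈ (memberHom (decSets 6 sextet0)).ker ∧ ((g : M24) : Equiv.Perm GolayPt) = permOf l := by
  obtain ⟨h1, h2⟩ := fixEach_spec (List.all_eq_true.mp sextetStab_check.1 l hl)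
  have hfix : ∀ t ∈ decSets 6 sextet0, permOf l • t = t := by
    intro t ht
    obtain ⟨m, hm, rfl⟩ := (sextet0_members t).mp ht
    exact h2 m hm
  exact ⟨⟨⟨permOf l, h1⟩, MulAction.mem_stabilizer_iff.mpr
      (smul_family_eq fun t ht => (hfix t ht).symm ▸ ht)⟩,
    MonoidHom.mem_ker.mpr (Equiv.ext fun t => Subtype.ext (hfix t t.2)), rfl⟩

theorem sextet_memberHom_surjective : Function.Surjective (memberHom (decSets 6 sextet0)) := by
  rw [← MonoidHom.range_eq_top, eq_top_iff, ← Equiv.Perm.closure_isSwap, Subgroup.closure_le]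
  rintro e ⟨x, y, hxy, rfl⟩
  obtain ⟨a, ha, hax⟩ := (sextet0_members x).mp x.2
  obtain ⟨b, hb, hby⟩ := (sextet0_members y).mp y.2
  have hab : a ≠ b := fun h => hxy (Subtype.ext (by rw [← hax, ← hby, h]))
  have h := List.all_eq_true.mp (List.all_eq_true.mp sextetStab_check.2.2.2.2.2.2.2.2 a ha) b hb
  rw [Bool.or_eq_true, beq_iff_eq, List.any_eq_true] at h
  obtain ⟨e', -, he⟩ := h.resolve_left hab
  rw [Bool.and_eq_true, List.all_eq_true] at he
  obtain ⟨haut, he⟩ := he
  have hsmul : ∀ m ∈ sextetMasks, permOf e'.2 • ofMask m =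
      ofMask (bif m == a then b else bif m == b then a else m) := fun m hm => by
    rw [smul_ofMask (autL_valid haut), show actL e'.2 m = _ by simpa using he m hm]
  have hswap : ∀ t : ↥(decSets 6 sextet0),
      permOf e'.2 • (t : Finset GolayPt) = (Equiv.swap x y t : Finset GolayPt) := by
    intro t
    obtain ⟨m, hm, hmt⟩ := (sextet0_members t).mp t.2
    rw [← hmt, hsmul m hm]
    by_cases h1 : m = a
    · subst h1
      rw [show t = x from Subtype.ext (hmt.symm.trans hax), Equiv.swap_apply_left]
      simp [hby]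
    by_cases h2 : m = b
    · subst h2
      rw [show t = y from Subtype.ext (hmt.symm.trans hby), Equiv.swap_apply_right]
      rw [beq_false_of_ne h1, cond_false, beq_self_eq_true, cond_true, hax]
    · have hlt : ∀ k ∈ sextetMasks, k < 2 ^ 24 := by decide
      rw [Equiv.swap_apply_of_ne_of_ne
        (fun e => h1 (ofMask_inj (hlt m hm) (hlt a ha) (by rw [hmt, hax, e])))
        (fun e => h2 (ofMask_inj (hlt m hm) (hlt b hb) (by rw [hmt, hby, e])))]
      rw [beq_false_of_ne h1, cond_false, beq_false_of_ne h2, cond_false, hmt]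
  exact ⟨⟨⟨permOf e'.2, permOf_mem_M24 haut⟩, MulAction.mem_stabilizer_iff.mpr
    (smul_family_eq fun t ht => (hswap ⟨t, ht⟩).symm ▸ (Equiv.swap x y ⟨t, ht⟩).2)⟩,
    Equiv.ext fun t => Subtype.ext (hswap t)⟩

theorem card_sextet0_stab :
    Nat.card (MulAction.stabilizer M24 (decSets 6 sextet0)) = 138240 := by
  have h := card_stab_mul (decSets 6 sextet0)
  rw [sextetFamily.orbit_eq (decSets_sextet sextet0_key),
    show sextetFamily.X = sextets from rfl, sextets_ncard] at h
  exact Nat.eq_of_mul_eq_mul_right (by norm_num : 0 < 1771)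
    (h.trans (by norm_num : (244823040 : ℕ) = 138240 * 1771))

theorem card_sextet0_memberKer : Nat.card (memberHom (decSets 6 sextet0)).ker = 192 := by
  have h := Subgroup.card_mul_index (memberHom (decSets 6 sextet0)).ker
  rw [Subgroup.index_ker, MonoidHom.range_eq_top.mpr sextet_memberHom_surjective, Subgroup.card_top,
    Nat.card_perm, Nat.card_eq_fintype_card (α := ↥(decSets 6 sextet0)), Fintype.card_coe,
    card_decSets (sextetKey_canon sextet0_key), card_sextet0_stab] at h
  rw [show Nat.factorial 6 = 720 from rfl] at h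
  exact Nat.eq_of_mul_eq_mul_right (by norm_num : 0 < 720)
    (h.trans (by norm_num : (138240 : ℕ) = 192 * 720))

theorem mem_memberKer_iff (g : MulAction.stabilizer M24 (decSets 6 sextet0)) :
    g ∈ (memberHom (decSets 6 sextet0)).ker ↔
      ∃ l ∈ sextetKer, ((g : M24) : Equiv.Perm GolayPt) = permOf l := by
  classical
  have key : ((memberHom (decSets 6 sextet0)).ker : Set (MulAction.stabilizer M24 (decSets 6 sextet0))) =
      {g : MulAction.stabilizer M24 (decSets 6 sextet0) |
        ∃ l ∈ sextetKer, ((g : M24) : Equiv.Perm GolayPt) = permOf l} := by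
    refine (Set.eq_of_subset_of_ncard_le ?_ ?_ (Set.toFinite _)).symm
    · rintro g ⟨l, hl, e⟩
      obtain ⟨g', hg', e'⟩ := sextetKer_mem hl
      rwa [show g = g' from Subtype.ext (Subtype.ext (e.trans e'.symm))]
    · have hinj : ((fun g : MulAction.stabilizer M24 (decSets 6 sextet0) =>
          ((g : M24) : Equiv.Perm GolayPt)) '' {g : MulAction.stabilizer M24 (decSets 6 sextet0) | ∃ l ∈ sextetKer,
            ((g : M24) : Equiv.Perm GolayPt) = permOf l}) = permOf '' {l | l ∈ sextetKer} := by
        ext p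
        constructor
        · rintro ⟨g, ⟨l, hl, e⟩, rfl⟩; exact ⟨l, hl, e.symm⟩
        · rintro ⟨l, hl, rfl⟩
          obtain ⟨g, -, e⟩ := sextetKer_mem hl
          exact ⟨g, ⟨l, hl, e⟩, e⟩
      have hc : (permOf '' {l | l ∈ sextetKer}).ncard = 192 := by
        rw [Set.InjOn.ncard_image (show Set.InjOn permOf {l | l ∈ sextetKer} from fun a ha b hb h => by
            have h' := List.all_eq_true.mp sextetStab_check.1
            have h1 := h' a ha
            have h2 := h' b hb
            rw [fixEach, Bool.and_eq_true] at h1 h2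
            exact permOf_ext (autL_valid h1.1) (autL_valid h2.1) h),
          show {l | l ∈ sextetKer} = (sextetKer.toFinset : Set (List ℕ)) by ext; simp,
          Set.ncard_coe_finset, List.toFinset_card_of_nodup sextetStab_check.2.1,
          sextetStab_check.2.2.1]
      rw [← hinj] at hc
      have := Set.ncard_image_le (f := fun g : MulAction.stabilizer M24 (decSets 6 sextet0) =>
        ((g : M24) : Equiv.Perm GolayPt)) (s := {g : MulAction.stabilizer M24 (decSets 6 sextet0) | ∃ l ∈ sextetKer,
          ((g : M24) : Equiv.Perm GolayPt) = permOf l}) (Set.toFinite _)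
      have h192 : ((memberHom (decSets 6 sextet0)).ker :
          Set (MulAction.stabilizer M24 (decSets 6 sextet0))).ncard = 192 := by
        rw [← Nat.card_coe_set_eq]; exact card_sextet0_memberKer
      omega
  exact Set.ext_iff.mp key g

theorem kerInv_iff (g : MulAction.stabilizer M24 (decSets 6 sextet0)) :
    (g ∈ (memberHom (decSets 6 sextet0)).ker ∧ g * g = 1) ↔
      ∃ l ∈ sextetKerInv, ((g : M24) : Equiv.Perm GolayPt) = permOf l := by
  obtain ⟨hfix, -, -, -, -, hsq, hsq', -, -⟩ := sextetStab_check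
  have hval : ∀ l ∈ sextetKer, validL l = true := fun l hl => by
    have := List.all_eq_true.mp hfix l hl
    rw [fixEach, Bool.and_eq_true] at this
    exact autL_valid this.1
  rw [mem_memberKer_iff]
  constructor
  · rintro ⟨⟨l, hl, e⟩, hgg⟩
    rcases List.mem_append.mp hl with h | h
    · exact ⟨l, h, e⟩
    · exfalso
      have h' := List.all_eq_true.mp hsq' l h
      simp only [Bool.and_eq_true, bne_iff_ne, ne_eq] at h'
      refine h'.2 (permOf_ext h'.1 (autL_valid autL_idL) ?_)
      rw [permOf_compL (hval l hl) (hval l hl) h'.1, permOf_idL, ← e]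
      exact congrArg (fun a : MulAction.stabilizer M24 (decSets 6 sextet0) =>
        ((a : M24) : Equiv.Perm GolayPt)) hgg
  · rintro ⟨l, hl, e⟩
    have hl' := List.mem_append_left sextetKerRest hl
    refine ⟨⟨l, hl', e⟩, Subtype.ext (Subtype.ext ?_)⟩
    have h2 : compL l l = idL := by simpa using List.all_eq_true.mp hsq l hl
    show ((g : M24) : Equiv.Perm GolayPt) * ((g : M24) : Equiv.Perm GolayPt) = 1
    rw [e, ← permOf_compL (hval l hl') (hval l hl') (by rw [h2]; exact autL_valid autL_idL), h2,
      permOf_idL]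

/-- The normal subgroup of order 64. -/
def sextetSixtyFour : Subgroup (MulAction.stabilizer M24 (decSets 6 sextet0)) where
  carrier := {g | g ∈ (memberHom (decSets 6 sextet0)).ker ∧ g * g = 1}
  one_mem' := ⟨one_mem _, one_mul 1⟩
  mul_mem' := by
    rintro a b ha hb
    rw [Set.mem_ofPred_eq, kerInv_iff] at *
    obtain ⟨la, hla, ea⟩ := ha
    obtain ⟨lb, hlb, eb⟩ := hb
    obtain ⟨hfix, -, -, -, -, -, -, hmul, -⟩ := sextetStab_check
    have hval : ∀ l ∈ sextetKerInv, validL l = true := fun l hl => by
      have := List.all_eq_true.mp hfix l (List.mem_append_left _ hl)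
      rw [fixEach, Bool.and_eq_true] at this
      exact autL_valid this.1
    have hc := List.contains_iff_mem.mp
      (List.all_eq_true.mp (List.all_eq_true.mp hmul la hla) lb hlb)
    refine ⟨_, hc, ?_⟩
    rw [permOf_compL (hval la hla) (hval lb hlb) (hval _ hc), ← ea, ← eb]
    rfl
  inv_mem' := by
    rintro a ⟨h1, h2⟩
    refine ⟨inv_mem h1, ?_⟩
    rw [← mul_inv_rev, h2, inv_one]

theorem sextetSixtyFour_normal : sextetSixtyFour.Normal where
  conj_mem := by
    rintro n ⟨h1, h2⟩ g
    refine ⟨(MonoidHom.normal_ker (memberHom (decSets 6 sextet0))).conj_mem n h1 g, ?_⟩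
    calc g * n * g⁻¹ * (g * n * g⁻¹) = g * (n * n) * g⁻¹ := by group
      _ = 1 := by rw [h2]; group

theorem card_sextetSixtyFour : Nat.card sextetSixtyFour = 64 := by
  classical
  have himg : ((fun g : MulAction.stabilizer M24 (decSets 6 sextet0) =>
      ((g : M24) : Equiv.Perm GolayPt)) '' (sextetSixtyFour : Set _)) =
      permOf '' {l | l ∈ sextetKerInv} := by
    ext p
    constructor
    · rintro ⟨g, hg, rfl⟩
      obtain ⟨l, hl, e⟩ := (kerInv_iff g).mp hg
      exact ⟨l, hl, e.symm⟩
    · rintro ⟨l, hl, rfl⟩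
      obtain ⟨g, -, e⟩ := sextetKer_mem (List.mem_append_left _ hl)
      exact ⟨g, (kerInv_iff g).mpr ⟨l, hl, e⟩, e⟩
  have h := congrArg Set.ncard himg
  rw [Set.ncard_image_of_injective _ (fun a b e => Subtype.ext (Subtype.ext e)),
    Set.InjOn.ncard_image (show Set.InjOn permOf {l | l ∈ sextetKerInv} from fun a ha b hb h => by
      have h' := List.all_eq_true.mp sextetStab_check.1
      have h1 := h' a (List.mem_append_left _ ha)
      have h2 := h' b (List.mem_append_left _ hb)
      rw [fixEach, Bool.and_eq_true] at h1 h2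
      exact permOf_ext (autL_valid h1.1) (autL_valid h2.1) h),
    show {l | l ∈ sextetKerInv} = (sextetKerInv.toFinset : Set (List ℕ)) by ext; simp,
    Set.ncard_coe_finset, List.toFinset_card_of_nodup
      ((List.nodup_append.mp sextetStab_check.2.1).1), sextetStab_check.2.2.2.1] at h
  rw [← h, ← Nat.card_coe_set_eq]
  rfl

theorem sextet_structure {S : Finset (Finset GolayPt)} (hS : S ∈ sextets) :
    (∀ e : Equiv.Perm ↥S, ∃ g ∈ MulAction.stabilizer M24 S, ∀ t : ↥S,
      ((g : M24) : Equiv.Perm GolayPt) • (t : Finset GolayPt) = ((e t : ↥S) : Finset GolayPt)) ∧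
    Nat.card {g : ↥(MulAction.stabilizer M24 S) //
      ∀ t ∈ S, ((g : M24) : Equiv.Perm GolayPt) • t = t} = 192 ∧
    ∃ N : Subgroup ↥(MulAction.stabilizer M24 S), N.Normal ∧ Nat.card N = 64 ∧
      ∀ x ∈ N, x * x = 1 := by
  obtain ⟨g, hg, hgS⟩ := sextetFamily.trans_base S hS
  have hgS' : g • decSets 6 sextet0 = S := hgS
  set φ := stabConj (x := decSets 6 sextet0) (y := S) ⟨g, hg⟩ hgS'
  have hmem : ∀ t, t ∈ S ↔ g⁻¹ • t ∈ decSets 6 sextet0 := fun t => by
    rw [← hgS', ← Finset.inv_smul_mem_iff]
  have hφ : ∀ a t, ((φ a : M24) : Equiv.Perm GolayPt) • t =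
      g • ((a : M24) : Equiv.Perm GolayPt) • g⁻¹ • (t : Finset GolayPt) := fun a t => by
    show (g * ((a : M24) : Equiv.Perm GolayPt) * g⁻¹) • t = _
    rw [mul_smul, mul_smul]
  refine ⟨fun e => ?_, ?_, ?_⟩
  · let ι : ↥(decSets 6 sextet0) ≃ ↥S :=
      { toFun := fun t => ⟨g • (t : Finset GolayPt), (hmem _).mpr (by rw [inv_smul_smul]; exact t.2)⟩
        invFun := fun t => ⟨g⁻¹ • (t : Finset GolayPt), (hmem _).mp t.2⟩
        left_inv := fun t => Subtype.ext (inv_smul_smul g _)
        right_inv := fun t => Subtype.ext (smul_inv_smul g _) }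
    obtain ⟨a, ha⟩ := sextet_memberHom_surjective (ι.trans (e.trans ι.symm))
    refine ⟨(φ a : M24), (φ a).2, fun t => ?_⟩
    rw [hφ]
    have h := congrArg (fun π : Equiv.Perm ↥(decSets 6 sextet0) => ((π (ι.symm t)) : Finset GolayPt)) ha
    simp only [memberHom_apply, Equiv.trans_apply, Equiv.apply_symm_apply] at h
    rw [show g⁻¹ • (t : Finset GolayPt) = (ι.symm t : Finset GolayPt) from rfl, h]
    exact smul_inv_smul g _
  · rw [← card_sextet0_memberKer]
    refine Nat.card_congr
      { toFun := fun x => ⟨φ.symm x.1, MonoidHom.mem_ker.mpr (Equiv.ext fun t => Subtype.ext ?_)⟩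
        invFun := fun x => ⟨φ x.1, fun t ht => ?_⟩
        left_inv := fun x => Subtype.ext (φ.apply_symm_apply _)
        right_inv := fun x => Subtype.ext (φ.symm_apply_apply _) }
    · show ((φ.symm x.1 : M24) : Equiv.Perm GolayPt) • (t : Finset GolayPt) = t
      have h := hφ (φ.symm x.1) (g • (t : Finset GolayPt))
      rw [MulEquiv.apply_symm_apply, inv_smul_smul,
        x.2 _ ((hmem _).mpr (by rw [inv_smul_smul]; exact t.2))] at h
      exact (MulAction.injective g h).symm
    · rw [hφ]
      have h := congrArg (fun π : Equiv.Perm ↥(decSets 6 sextet0) =>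
        ((π ⟨_, (hmem t).mp ht⟩) : Finset GolayPt)) (MonoidHom.mem_ker.mp x.2)
      simp only [memberHom_apply, Equiv.Perm.one_apply] at h
      rw [h, smul_inv_smul]
  · refine ⟨sextetSixtyFour.map φ.toMonoidHom,
      sextetSixtyFour_normal.map _ φ.surjective, ?_, ?_⟩
    · rw [Nat.card_congr (sextetSixtyFour.equivMapOfInjective _ φ.injective).toEquiv.symm,
        card_sextetSixtyFour]
    · rintro _ ⟨x, hx, rfl⟩
      rw [← map_mul, hx.2, map_one]

end Cfsg.Agent.M24Geo
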