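import Cfsg.Agent.M24Geo.Family
import Cfsg.Agent.Golay.M24

/-! Orders of stabilisers in `M24` of the members of a family. -/

set_option autoImplicit false

namespace Cfsg.Agent.M24Geo

open scoped Pointwise
open Cfsg

/-- A point stabiliser inside a subgroup, as a subgroup of the ambient group. -/
def stabInfEquiv {α : Type} [MulAction (Equiv.Perm GolayPt) α] (x : α) :
    ↥(MulAction.stabilizer M24 x) ≃* ↥(M24 ⊓ MulAction.stabilizer (Equiv.Perm GolayPt) x) where
  toFun g := ⟨((g : M24) : Equiv.Perm GolayPt), (g : M24).2, g.2⟩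
  invFun g := ⟨⟨g.1, g.2.1⟩, g.2.2⟩
  left_inv _ := rfl
  right_inv _ := rfl
  map_mul' _ _ := rfl

theorem card_stab_mul {α : Type} [MulAction (Equiv.Perm GolayPt) α] (x : α) :
    Nat.card ↥(MulAction.stabilizer M24 x) * (MulAction.orbit M24 x).ncard = 244823040 := by
  rw [← MulAction.index_stabilizer, Subgroup.card_mul_index, Cfsg.Agent.Golay.card_M24]

theorem Family.card_stab {α : Type} [MulAction (Equiv.Perm GolayPt) α] (F : Family α) {x : α}
    (hx : x ∈ F.X) {N : ℕ} (hN : F.X.ncard = N) :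
    Nat.card ↥(M24 ⊓ MulAction.stabilizer (Equiv.Perm GolayPt) x) * N = 244823040 := by
  rw [← Nat.card_congr (stabInfEquiv x).toEquiv, ← hN, ← F.orbit_eq hx]
  exact card_stab_mul x

end Cfsg.Agent.M24Geo
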