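import Cfsg.Agent.M24Geo.SetFam
import Cfsg.Agent.M24Geo.StabCard

/-!
Listed elements of stabilisers in `M24`, and the permutation action of a stabiliser on the members
of a family of subsets.
-/

set_option autoImplicit false

namespace Cfsg.Agent.M24Geo

open scoped Pointwise
open Cfsg

/-- Composition of two lists of images. -/
def compL (a b : List ℕ) : List ℕ := b.map fun i => a.getD i 0

/-- The identity list. -/
def idL : List ℕ := List.range 24

theorem validL_getD {l : List ℕ} (hl : validL l = true) {i : ℕ} (hi : i < 24) :
    l.getD i 0 < 24 := by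
  simp only [validL, Bool.and_eq_true, beq_iff_eq, List.all_eq_true, decide_eq_true_eq] at hl
  refine hl.1.2 _ ?_
  rw [List.getD_eq_getElem _ _ (by omega)]
  exact List.getElem_mem _

theorem validL_length {l : List ℕ} (hl : validL l = true) : l.length = 24 := by
  simp only [validL, Bool.and_eq_true, beq_iff_eq] at hl
  exact hl.1.1

theorem permOf_ext {a b : List ℕ} (ha : validL a = true) (hb : validL b = true)
    (h : permOf a = permOf b) : a = b := by
  refine List.ext_getElem ((validL_length ha).trans (validL_length hb).symm) fun i h1 h2 => ?_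
  have hi : i < 24 := validL_length ha ▸ h1
  have := congrArg (fun g : Equiv.Perm GolayPt => idx (g (pt i))) h
  simp only [idx_permOf ha, idx_permOf hb, idx_pt i hi] at this
  rwa [List.getD_eq_getElem _ _ h1, List.getD_eq_getElem _ _ h2] at this

theorem permOf_compL {a b : List ℕ} (ha : validL a = true) (hb : validL b = true)
    (hab : validL (compL a b) = true) : permOf (compL a b) = permOf a * permOf b := by
  refine Equiv.ext fun p => idx_injective ?_
  have hp : idx p < b.length := by rw [validL_length hb]; exact idx_lt p
  rw [idx_permOf hab, Equiv.Perm.mul_apply, idx_permOf ha, idx_permOf hb, compL,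
    List.getD_eq_getElem _ _ (by simpa using hp), List.getElem_map,
    List.getD_eq_getElem b _ hp]

theorem autL_valid {l : List ℕ} (h : autL l = true) : validL l = true := by
  rw [autL, Bool.and_eq_true] at h
  exact h.1

theorem autL_idL : autL idL = true := by decide +kernel

theorem permOf_idL : permOf idL = 1 := by
  refine Equiv.ext fun p => idx_injective ?_
  rw [idx_permOf (autL_valid autL_idL), idL,
    List.getD_eq_getElem _ _ (by simpa using idx_lt p), List.getElem_range]
  rfl

/-- A list maps each of the masks to itself. -/
def fixEach (L : List ℕ) (l : List ℕ) : Bool := autL l && L.all fun m => actL l m == m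

theorem fixEach_spec {L l : List ℕ} (h : fixEach L l = true) :
    permOf l ∈ M24 ∧ ∀ m ∈ L, permOf l • ofMask m = ofMask m := by
  rw [fixEach, Bool.and_eq_true, List.all_eq_true] at h
  exact ⟨permOf_mem_M24 h.1, fun m hm => by
    rw [smul_ofMask (autL_valid h.1), show actL l m = m by simpa using h.2 m hm]⟩

/-- Restriction of a stabiliser to the members. -/
def memberHom (S : Finset (Finset GolayPt)) : MulAction.stabilizer M24 S →* Equiv.Perm ↥S where
  toFun g := (MulAction.toPerm ((g : M24) : Equiv.Perm GolayPt)).subtypePerm fun t => by
    have h : ((g : M24) : Equiv.Perm GolayPt) • S = S := MulAction.mem_stabilizer_iff.mp g.2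
    exact Eq.subst (motive := fun X => ((g : M24) : Equiv.Perm GolayPt) • t ∈ X ↔ t ∈ S) h
      (Finset.smul_mem_smul_finset_iff _)
  map_one' := Equiv.ext fun t => Subtype.ext (one_smul _ (t : Finset GolayPt))
  map_mul' g h := Equiv.ext fun t => Subtype.ext
    (mul_smul ((g : M24) : Equiv.Perm GolayPt) ((h : M24) : Equiv.Perm GolayPt) (t : Finset GolayPt))

theorem memberHom_apply (S : Finset (Finset GolayPt)) (g : MulAction.stabilizer M24 S) (t : ↥S) :
    (memberHom S g t : Finset GolayPt) =
      ((g : M24) : Equiv.Perm GolayPt) • (t : Finset GolayPt) := rfl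

theorem smul_family_eq {S : Finset (Finset GolayPt)} {g : Equiv.Perm GolayPt}
    (h : ∀ t ∈ S, g • t ∈ S) : g • S = S :=
  Finset.eq_of_subset_of_card_le (fun x hx => by
    obtain ⟨t, ht, rfl⟩ := Finset.mem_smul_finset.mp hx
    exact h t ht) (Finset.card_smul_finset g S).ge

/-- Conjugation between the stabilisers of two objects in one orbit. -/
def stabConj {α : Type} [MulAction (Equiv.Perm GolayPt) α] {x y : α} (g : M24) (h : g • x = y) :
    MulAction.stabilizer M24 x ≃* MulAction.stabilizer M24 y where
  toFun a := ⟨g * a * g⁻¹, by
    rw [MulAction.mem_stabilizer_iff, mul_smul, mul_smul, ← h, inv_smul_smul,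
      MulAction.mem_stabilizer_iff.mp a.2]⟩
  invFun a := ⟨g⁻¹ * a * g, by
    rw [MulAction.mem_stabilizer_iff, mul_smul, mul_smul, h, MulAction.mem_stabilizer_iff.mp a.2,
      ← h, inv_smul_smul]⟩
  left_inv a := Subtype.ext (by group)
  right_inv a := Subtype.ext (by group)
  map_mul' a b := Subtype.ext (by push_cast; group)

end Cfsg.Agent.M24Geo
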