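import Cfsg.Agent.M24Geo.SetFamOrbits
import Cfsg.Agent.M24Geo.DataTrio

/-! Kernel checks of the certificates for the orbits of a trio stabiliser on trios. -/

set_option autoImplicit false
set_option Elab.async false

namespace Cfsg.Agent.M24Geo

open Cfsg

/-- The reference trio. -/
def trio0 : ℕ := 4449133104813643694175

/-- No two listed masks meet. -/
def pairsDisj : List ℕ → Bool
  | [] => true
  | a :: L => (L.all fun b => a &&& b == 0) && pairsDisj L

/-- A key of a trio. -/
def trioKey (k : ℕ) : Bool :=
  canonKey 3 k && ((masksOf 3 k).all fun m => isWord 8 m) && pairsDisj (masksOf 3 k)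

/-- The trios through the reference octad. -/
def triosThrough : List ℕ :=
  [4449133104813643694175, 4285733512872762572895, 4170909743617354793055, 3985514572407434936415,
    3878545080434009866335, 3747355231108232151135, 3567895803853388677215, 3434012802110967808095,
    3254048971727923609695, 3117761047927831429215, 3012304765339008532575, 2828765077064969912415,
    2713292789501875486815, 2553874379394292940895, 2365623926190808268895]

theorem trio_stabOK : StabOK 3 trioGens trio0 := ⟨by decide +kernel, by decide +kernel⟩

theorem trio_sub0 : SubOK 3 trioGens trioRoot0 trioTree0 1 :=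
  ⟨by decide +kernel, by decide +kernel, by decide +kernel, by decide +kernel, by decide +kernel⟩

theorem trio_sub1 : SubOK 3 trioGens trioRoot1 trioTree1 42 :=
  ⟨by decide +kernel, by decide +kernel, by decide +kernel, by decide +kernel, by decide +kernel⟩

theorem trio_sub2 : SubOK 3 trioGens trioRoot2 trioTree2 56 :=
  ⟨by decide +kernel, by decide +kernel, by decide +kernel, by decide +kernel, by decide +kernel⟩

theorem trio_sub3 : SubOK 3 trioGens trioRoot3 trioTree3 1008 :=
  ⟨by decide +kernel, by decide +kernel, by decide +kernel, by decide +kernel, by decide +kernel⟩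

theorem trio_sub4 : SubOK 3 trioGens trioRoot4 trioTree4 2688 :=
  ⟨by decide +kernel, by decide +kernel, by decide +kernel, by decide +kernel, by decide +kernel⟩

theorem trio_misc : triosThrough.Nodup ∧
    triosThrough.all (fun k => trioKey k && (masksOf 3 k).contains 295007) = true ∧
    ((wordList 8).filter fun m => m &&& 295007 == 0).all (fun b =>
      isWord 8 ((295007 ||| b) ^^^ 16777215) && triosThrough.any fun k =>
        sameSet (masksOf 3 k) [295007, b, (295007 ||| b) ^^^ 16777215]) = true ∧
    [trioRoot0, trioRoot1, trioRoot2, trioRoot3, trioRoot4].all trioKey = true ∧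
    [trioRoot0, trioRoot1, trioRoot2, trioRoot3, trioRoot4].map
      (fun k => interSqKey (masksOf 3 trio0) 3 k) = [192, 128, 96, 80, 72] ∧
    trioRoot0 = trio0 := by
  decide +kernel

end Cfsg.Agent.M24Geo
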