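import Cfsg.Agent.M24Geo.StabLists
import Cfsg.Agent.M24Geo.Trio
import Cfsg.Agent.M24Geo.DataTrioStab

/-!
The stabiliser of a trio: it acts linearly on the seven sextets refining the trio and as the
symmetric group on the three octads, with kernel of order 64.
-/

set_option autoImplicit false

namespace Cfsg.Agent.M24Geo

open scoped Pointwise
open Cfsg Matrix

attribute [local irreducible] decSets

/-- Vectors of length 3 over the field of two elements. -/
abbrev Vec3 : Type := Fin 3 → ZMod 2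

/-- The code number of a vector. -/
def vecNum (v : Vec3) : ℕ := (v 0).val + 2 * (v 1).val + 4 * (v 2).val

/-- The vector of a code number. -/
def vecBits (n : ℕ) : Vec3 := fun i => ((n / 2 ^ (i : ℕ) % 2 : ℕ) : ZMod 2)

/-- The matrix with given columns. -/
def colMat (a : ℕ × ℕ × ℕ) : Matrix (Fin 3) (Fin 3) (ZMod 2) :=
  Matrix.of fun i j => vecBits (![a.1, a.2.1, a.2.2] j) i

/-- The key of a refining sextet. -/
def refKey (v : Vec3) : ℕ := (0 :: trioSextets).getD (vecNum v) 0

/-- The refining sextet of a vector. -/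
def refSet (v : Vec3) : Finset (Finset GolayPt) := decSets 6 (refKey v)

/-- The masks of the reference trio. -/
def trioMasks : List ℕ := [295007, 675712, 15806496]

/-- A member of the reference trio. -/
def octAt (i : Fin 3) : Finset GolayPt := ofMask (trioMasks.getD i 0)

/-- All vectors. -/
def allVecs : List Vec3 := (List.range 8).map vecBits

theorem mem_allVecs : ∀ v : Vec3, v ∈ allVecs := by decide +kernel

/-- The check of a listed linear element. -/
def linOK (e : (ℕ × ℕ × ℕ) × List ℕ) : Bool :=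
  autL e.2 && (trioMasks.all fun m => actL e.2 m == m) &&
    (allVecs.all fun v => stepSets 6 e.2 (refKey v) (refKey (colMat e.1 *ᵥ v))) &&
    decide ((colMat e.1).det ≠ 0) &&
    ([vecNum (colMat e.1 *ᵥ vecBits 1), vecNum (colMat e.1 *ᵥ vecBits 2),
      vecNum (colMat e.1 *ᵥ vecBits 4)] == [e.1.1, e.1.2.1, e.1.2.2])

/-- The check of a listed permuting element. -/
def permOK (e : (ℕ × ℕ × ℕ) × List ℕ) : Bool :=
  autL e.2 && (allVecs.all fun v => stepSets 6 e.2 (refKey v) (refKey v)) &&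
    ((List.range 3).all fun i =>
      actL e.2 (trioMasks.getD i 0) == trioMasks.getD ([e.1.1, e.1.2.1, e.1.2.2].getD i 0) 0) &&
    decide (∃ π : Equiv.Perm (Fin 3), ∀ i : Fin 3, [e.1.1, e.1.2.1, e.1.2.2].getD (i : ℕ) 0 = (π i : ℕ))

/-- The check of a listed kernel element. -/
def kerOK (l : List ℕ) : Bool :=
  autL l && (trioMasks.all fun m => actL l m == m) &&
    (allVecs.all fun v => stepSets 6 l (refKey v) (refKey v)) && (compL l l == idL)

theorem trioLinear_ok : trioLinear.all linOK = true := by decide +kernel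

theorem trioPerms_ok : trioPerms.all permOK = true := by decide +kernel

theorem trioKer_ok : trioKer.all kerOK = true := by decide +kernel

theorem trioLists_facts :
    (trioLinear.map Prod.fst).Nodup ∧ trioLinear.length = 168 ∧
    (trioPerms.map Prod.fst).Nodup ∧ trioPerms.length = 6 ∧
    trioKer.Nodup ∧ trioKer.length = 64 ∧
    (trioLinear.all fun e => !(e.1 == (1, 2, 4)) || e.2 == idL) = true ∧
    (trioPerms.all fun e => !(e.1 == (0, 1, 2)) || e.2 == idL) = true ∧
    masksOf 3 trio0 = trioMasks := by decide +kernel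

theorem refKey_distinct : ∀ v w : Vec3,
    sameSet (masksOf 6 (refKey v)) (masksOf 6 (refKey w)) = true → v = w := by decide +kernel

attribute [local irreducible] trioLinear trioPerms trioKer

theorem refSet_injective : Function.Injective refSet := by
  intro v w h
  refine refKey_distinct v w ?_
  simp only [sameSet, Bool.and_eq_true, List.all_eq_true, List.contains_iff_mem]
  constructor <;> intro m hm
  · have := mem_decSets.mpr ⟨m, hm, rfl⟩
    rw [show decSets 6 (refKey v) = decSets 6 (refKey w) from h] at this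
    obtain ⟨m', hm', e⟩ := mem_decSets.mp this
    rwa [← ofMask_inj (masksOf_lt _ _ m' hm') (masksOf_lt _ _ m hm) e]
  · have := mem_decSets.mpr ⟨m, hm, rfl⟩
    rw [show decSets 6 (refKey w) = decSets 6 (refKey v) from h.symm] at this
    obtain ⟨m', hm', e⟩ := mem_decSets.mp this
    rwa [← ofMask_inj (masksOf_lt _ _ m' hm') (masksOf_lt _ _ m hm) e]

theorem octAt_injective : Function.Injective octAt := by
  have key : ∀ i j : Fin 3, trioMasks.getD (i : ℕ) 0 = trioMasks.getD (j : ℕ) 0 → i = j := by decide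
  have hlt : ∀ i : Fin 3, trioMasks.getD (i : ℕ) 0 < 2 ^ 24 := by decide
  exact fun i j h => key i j (ofMask_inj (hlt i) (hlt j) h)

theorem octAt_range : ∀ t, t ∈ decSets 3 trio0 ↔ ∃ i, octAt i = t := by
  intro t
  rw [mem_decSets, trioLists_facts.2.2.2.2.2.2.2.2]
  constructor
  · rintro ⟨m, hm, rfl⟩
    simp only [trioMasks, List.mem_cons, List.not_mem_nil, or_false] at hm
    rcases hm with rfl | rfl | rfl
    exacts [⟨0, rfl⟩, ⟨1, rfl⟩, ⟨2, rfl⟩]
  · rintro ⟨i, rfl⟩
    refine ⟨_, ?_, rfl⟩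
    fin_cases i <;> simp [trioMasks]

/-- `g` acts by the matrix on the refining sextets and by the permutation on the octads. -/
def Acts (g : Equiv.Perm GolayPt) (M : Matrix (Fin 3) (Fin 3) (ZMod 2)) (π : Equiv.Perm (Fin 3)) :
    Prop :=
  (∀ v, g • refSet v = refSet (M *ᵥ v)) ∧ ∀ i, g • octAt i = octAt (π i)

theorem Acts.mul {g h : Equiv.Perm GolayPt} {M M' : Matrix (Fin 3) (Fin 3) (ZMod 2)}
    {π π' : Equiv.Perm (Fin 3)} (hg : Acts g M π) (hh : Acts h M' π') :
    Acts (g * h) (M * M') (π * π') :=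
  ⟨fun v => by rw [mul_smul, hh.1, hg.1, Matrix.mulVec_mulVec],
    fun i => by rw [mul_smul, hh.2, hg.2, Equiv.Perm.mul_apply]⟩

theorem Acts.one : Acts 1 1 1 :=
  ⟨fun v => by rw [one_smul, Matrix.one_mulVec], fun i => by rw [one_smul]; rfl⟩

theorem Acts.unique {g : Equiv.Perm GolayPt} {M M' : Matrix (Fin 3) (Fin 3) (ZMod 2)}
    {π π' : Equiv.Perm (Fin 3)} (h : Acts g M π) (h' : Acts g M' π') : M = M' ∧ π = π' := by
  refine ⟨Matrix.ext_of_mulVec_single fun i => ?_, Equiv.ext fun i => ?_⟩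
  · exact refSet_injective ((h.1 _).symm.trans (h'.1 _))
  · exact octAt_injective ((h.2 _).symm.trans (h'.2 _))

theorem lin_acts {e : (ℕ × ℕ × ℕ) × List ℕ} (he : e ∈ trioLinear) :
    permOf e.2 ∈ M24 ∧ Acts (permOf e.2) (colMat e.1) 1 ∧ (colMat e.1).det ≠ 0 ∧
      [vecNum (colMat e.1 *ᵥ vecBits 1), vecNum (colMat e.1 *ᵥ vecBits 2),
        vecNum (colMat e.1 *ᵥ vecBits 4)] = [e.1.1, e.1.2.1, e.1.2.2] := by
  have h := List.all_eq_true.mp trioLinear_ok e he
  simp only [linOK, Bool.and_eq_true, List.all_eq_true, decide_eq_true_eq] at h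
  obtain ⟨⟨⟨⟨ha, ho⟩, hv⟩, hd⟩, hn⟩ := h
  refine ⟨permOf_mem_M24 ha, ⟨fun v => stepSets_sound 6 _ _ _ ha (hv v (mem_allVecs v)), fun i => ?_⟩,
    hd, eq_of_beq hn⟩
  have hm : trioMasks.getD (i : ℕ) 0 ∈ trioMasks := by fin_cases i <;> simp [trioMasks]
  rw [octAt, smul_ofMask (autL_valid ha),
    show actL e.2 (trioMasks.getD (i : ℕ) 0) = trioMasks.getD (i : ℕ) 0 from eq_of_beq (ho _ hm)]
  rfl

theorem perm_acts {e : (ℕ × ℕ × ℕ) × List ℕ} (he : e ∈ trioPerms) :
    permOf e.2 ∈ M24 ∧ ∃ π, Acts (permOf e.2) 1 π ∧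
      e.1 = ((π 0 : ℕ), (π 1 : ℕ), (π 2 : ℕ)) := by
  have h := List.all_eq_true.mp trioPerms_ok e he
  simp only [permOK, Bool.and_eq_true, List.all_eq_true, decide_eq_true_eq] at h
  obtain ⟨⟨⟨ha, hv⟩, ho⟩, π, hπ⟩ := h
  refine ⟨permOf_mem_M24 ha, π,
    ⟨fun v => by rw [Matrix.one_mulVec]; exact stepSets_sound 6 _ _ _ ha (hv v (mem_allVecs v)),
      fun i => ?_⟩, ?_⟩
  · rw [octAt, octAt, smul_ofMask (autL_valid ha),
      show actL e.2 (trioMasks.getD (i : ℕ) 0) = _ from eq_of_beq (ho i (List.mem_range.mpr i.2)),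
      hπ i]
  · rw [← hπ 0, ← hπ 1, ← hπ 2]
    rfl

theorem ker_acts {l : List ℕ} (hl : l ∈ trioKer) :
    permOf l ∈ M24 ∧ Acts (permOf l) 1 1 ∧ permOf l * permOf l = 1 ∧ validL l = true := by
  have h := List.all_eq_true.mp trioKer_ok l hl
  simp only [kerOK, Bool.and_eq_true, List.all_eq_true] at h
  obtain ⟨⟨⟨ha, ho⟩, hv⟩, hs⟩ := h
  refine ⟨permOf_mem_M24 ha, ⟨fun v => by
    rw [Matrix.one_mulVec]; exact stepSets_sound 6 _ _ _ ha (hv v (mem_allVecs v)), fun i => ?_⟩,
    ?_, autL_valid ha⟩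
  · have hm : trioMasks.getD (i : ℕ) 0 ∈ trioMasks := by fin_cases i <;> simp [trioMasks]
    rw [octAt, smul_ofMask (autL_valid ha),
      show actL l (trioMasks.getD (i : ℕ) 0) = trioMasks.getD (i : ℕ) 0 from eq_of_beq (ho _ hm)]
    rfl
  · rw [← permOf_compL (autL_valid ha) (autL_valid ha)
      (by rw [eq_of_beq hs]; exact autL_valid autL_idL), eq_of_beq hs, permOf_idL]

/-- Stabilising the reference trio. -/
theorem Acts.fixes {g : Equiv.Perm GolayPt} {M : Matrix (Fin 3) (Fin 3) (ZMod 2)}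
    {π : Equiv.Perm (Fin 3)} (h : Acts g M π) : g • decSets 3 trio0 = decSets 3 trio0 := by
  refine smul_family_eq fun t ht => ?_
  obtain ⟨i, rfl⟩ := (octAt_range t).mp ht
  exact (octAt_range _).mpr ⟨π i, (h.2 i).symm⟩

/-- Index set for the products. -/
def trioIdx : Finset (((ℕ × ℕ × ℕ) × List ℕ) × ((ℕ × ℕ × ℕ) × List ℕ) × List ℕ) :=
  trioLinear.toFinset ×ˢ (trioPerms.toFinset ×ˢ trioKer.toFinset)

/-- The product of three listed elements. -/
noncomputable def trioProd
    (x : ((ℕ × ℕ × ℕ) × List ℕ) × ((ℕ × ℕ × ℕ) × List ℕ) × List ℕ) : Equiv.Perm GolayPt :=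
  permOf x.1.2 * permOf x.2.1.2 * permOf x.2.2

theorem mem_trioIdx {x} :
    x ∈ trioIdx ↔ x.1 ∈ trioLinear ∧ x.2.1 ∈ trioPerms ∧ x.2.2 ∈ trioKer := by
  simp [trioIdx]

theorem trioProd_acts {x} (hx : x ∈ trioIdx) :
    trioProd x ∈ M24 ∧ ∃ π, Acts (trioProd x) (colMat x.1.1) π ∧
      x.2.1.1 = ((π 0 : ℕ), (π 1 : ℕ), (π 2 : ℕ)) := by
  obtain ⟨h1, h2, h3⟩ := mem_trioIdx.mp hx
  obtain ⟨ma, ha, -, -⟩ := lin_acts h1
  obtain ⟨mb, π, hb, hq⟩ := perm_acts h2
  obtain ⟨mc, hc, -, -⟩ := ker_acts h3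
  refine ⟨mul_mem (mul_mem ma mb) mc, π, ?_, hq⟩
  have h := (ha.mul hb).mul hc
  simp only [mul_one, one_mul] at h
  exact h

theorem trioProd_injOn : Set.InjOn trioProd (trioIdx : Set _) := by
  intro x hx y hy e
  obtain ⟨hx1, hx2, hx3⟩ := mem_trioIdx.mp hx
  obtain ⟨hy1, hy2, hy3⟩ := mem_trioIdx.mp hy
  obtain ⟨-, π, hA, hq⟩ := trioProd_acts hx
  obtain ⟨-, π', hA', hq'⟩ := trioProd_acts hy
  rw [← e] at hA'
  obtain ⟨hM, hπ⟩ := hA.unique hA'
  have e1 : x.1 = y.1 := by
    refine List.inj_on_of_nodup_map trioLists_facts.1 hx1 hy1 ?_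
    have nx := (lin_acts hx1).2.2.2
    have ny := (lin_acts hy1).2.2.2
    rw [hM] at nx
    have := nx.symm.trans ny
    simp only [List.cons.injEq, and_true] at this
    exact Prod.ext this.1 (Prod.ext this.2.1 this.2.2)
  have e2 : x.2.1 = y.2.1 :=
    List.inj_on_of_nodup_map trioLists_facts.2.2.1 hx2 hy2 (by rw [hq, hq', hπ])
  rw [trioProd, trioProd, e1, e2] at e
  have e3 : x.2.2 = y.2.2 :=
    permOf_ext (ker_acts hx3).2.2.2 (ker_acts hy3).2.2.2 (mul_left_cancel e)
  exact Prod.ext e1 (Prod.ext e2 e3)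

/-- The stabiliser of the reference trio. -/
abbrev TrioGroup : Type := ↥(MulAction.stabilizer M24 (decSets 3 trio0))

theorem card_trioGroup : Nat.card TrioGroup = 64512 := by
  have h := card_stab_mul (decSets 3 trio0)
  rw [trioFamily.orbit_eq (decSets_trio_of_key trio0_key),
    show trioFamily.X = trios from rfl, trios_ncard] at h
  exact Nat.eq_of_mul_eq_mul_right (by norm_num : 0 < 3795)
    (h.trans (by norm_num : (244823040 : ℕ) = 64512 * 3795))

theorem trioGroup_decomp (g : TrioGroup) :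
    ∃ x ∈ trioIdx, trioProd x = ((g : M24) : Equiv.Perm GolayPt) := by
  classical
  let S : Set (Equiv.Perm GolayPt) := Set.range fun g : TrioGroup => ((g : M24) : Equiv.Perm GolayPt)
  have hS : S.ncard = 64512 := by
    rw [← card_trioGroup]
    exact Set.ncard_range_of_injective fun a b e => Subtype.ext (Subtype.ext e)
  have hsub : trioProd '' (trioIdx : Set _) ⊆ S := by
    rintro _ ⟨x, hx, rfl⟩
    obtain ⟨hm, π, hA, -⟩ := trioProd_acts hx
    exact ⟨⟨⟨_, hm⟩, MulAction.mem_stabilizer_iff.mpr hA.fixes⟩, rfl⟩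
  have hcard : (trioProd '' (trioIdx : Set _)).ncard = 64512 := by
    rw [trioProd_injOn.ncard_image, Set.ncard_coe_finset, trioIdx, Finset.card_product,
      Finset.card_product, List.toFinset_card_of_nodup trioLists_facts.1.of_map,
      List.toFinset_card_of_nodup trioLists_facts.2.2.1.of_map,
      List.toFinset_card_of_nodup trioLists_facts.2.2.2.2.1, trioLists_facts.2.1,
      trioLists_facts.2.2.2.1, trioLists_facts.2.2.2.2.2.1]
  have heq := Set.eq_of_subset_of_ncard_le hsub (by rw [hS, hcard]) (Set.toFinite _)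
  have : ((g : M24) : Equiv.Perm GolayPt) ∈ trioProd '' (trioIdx : Set _) := heq ▸ ⟨g, rfl⟩
  exact this

theorem trioGroup_acts (g : TrioGroup) :
    ∃ M π, M.det ≠ 0 ∧ Acts ((g : M24) : Equiv.Perm GolayPt) M π := by
  obtain ⟨x, hx, e⟩ := trioGroup_decomp g
  obtain ⟨-, π, hA, -⟩ := trioProd_acts hx
  exact ⟨_, π, (lin_acts (mem_trioIdx.mp hx).1).2.2.1, e ▸ hA⟩

/-- The action on refining sextets and octads. -/
noncomputable def trioQuot : TrioGroup →* GL (Fin 3) (ZMod 2) × Equiv.Perm (Fin 3) :=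
  MonoidHom.mk' (fun g => (Matrix.GeneralLinearGroup.mkOfDetNeZero (trioGroup_acts g).choose
      (trioGroup_acts g).choose_spec.choose_spec.1, (trioGroup_acts g).choose_spec.choose))
    fun g h => by
      have hgh := (trioGroup_acts (g * h)).choose_spec.choose_spec.2
      have hg := (trioGroup_acts g).choose_spec.choose_spec.2
      have hh := (trioGroup_acts h).choose_spec.choose_spec.2
      obtain ⟨h1, h2⟩ := hgh.unique (hg.mul hh)
      exact Prod.ext (Units.ext h1) h2

theorem trioQuot_acts (g : TrioGroup) :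
    Acts ((g : M24) : Equiv.Perm GolayPt) ((trioQuot g).1 : Matrix (Fin 3) (Fin 3) (ZMod 2))
      (trioQuot g).2 :=
  (trioGroup_acts g).choose_spec.choose_spec.2

theorem trioQuot_ker (g : TrioGroup) :
    g ∈ trioQuot.ker ↔ ∃ l ∈ trioKer, permOf l = ((g : M24) : Equiv.Perm GolayPt) := by
  constructor
  · intro h
    rw [MonoidHom.mem_ker] at h
    have hA := trioQuot_acts g
    rw [h] at hA
    obtain ⟨x, hx, e⟩ := trioGroup_decomp g
    obtain ⟨-, π, hA', hq⟩ := trioProd_acts hx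
    rw [e] at hA'
    obtain ⟨hM, hπ⟩ := hA'.unique hA
    obtain ⟨h1, h2, h3⟩ := mem_trioIdx.mp hx
    have n := (lin_acts h1).2.2.2
    rw [show colMat x.1.1 = 1 from hM, Matrix.one_mulVec, Matrix.one_mulVec, Matrix.one_mulVec] at n
    simp only [List.cons.injEq, and_true] at n
    have e1 : x.1.2 = idL := by
      have h' := List.all_eq_true.mp trioLists_facts.2.2.2.2.2.2.1 x.1 h1
      rw [show x.1.1 = (1, 2, 4) from
        Prod.ext (n.1.symm.trans (by decide)) (Prod.ext (n.2.1.symm.trans (by decide))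
          (n.2.2.symm.trans (by decide)))] at h'
      simpa using h'
    have e2 : x.2.1.2 = idL := by
      have h' := List.all_eq_true.mp trioLists_facts.2.2.2.2.2.2.2.1 x.2.1 h2
      rw [hq, hπ] at h'
      simpa using h'
    refine ⟨x.2.2, h3, ?_⟩
    rw [← e, trioProd, e1, e2, permOf_idL, one_mul, one_mul]
  · rintro ⟨l, hl, e⟩
    obtain ⟨-, hA, -, -⟩ := ker_acts hl
    rw [e] at hA
    obtain ⟨h1, h2⟩ := (trioQuot_acts g).unique hA
    exact MonoidHom.mem_ker.mpr (Prod.ext (Units.ext h1) h2)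

theorem card_trioQuot_ker : Nat.card trioQuot.ker = 64 := by
  classical
  have himg : ((fun g : TrioGroup => ((g : M24) : Equiv.Perm GolayPt)) ''
      (trioQuot.ker : Set TrioGroup)) = permOf '' {l | l ∈ trioKer} := by
    ext p
    constructor
    · rintro ⟨g, hg, rfl⟩
      obtain ⟨l, hl, e⟩ := (trioQuot_ker g).mp hg
      exact ⟨l, hl, e⟩
    · rintro ⟨l, hl, rfl⟩
      obtain ⟨hm, hA, -, -⟩ := ker_acts hl
      exact ⟨⟨⟨_, hm⟩, MulAction.mem_stabilizer_iff.mpr hA.fixes⟩,
        (trioQuot_ker _).mpr ⟨l, hl, rfl⟩, rfl⟩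
  have h := congrArg Set.ncard himg
  rw [Set.ncard_image_of_injective _ (fun a b e => Subtype.ext (Subtype.ext e)),
    Set.InjOn.ncard_image (show Set.InjOn permOf {l | l ∈ trioKer} from fun a ha b hb e =>
      permOf_ext (ker_acts ha).2.2.2 (ker_acts hb).2.2.2 e),
    show {l | l ∈ trioKer} = (trioKer.toFinset : Set (List ℕ)) by ext; simp,
    Set.ncard_coe_finset, List.toFinset_card_of_nodup trioLists_facts.2.2.2.2.1,
    trioLists_facts.2.2.2.2.2.1] at h
  rw [← h, ← Nat.card_coe_set_eq]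
  rfl

theorem trioQuot_surjective : Function.Surjective trioQuot := by
  have h := Subgroup.card_mul_index trioQuot.ker
  rw [Subgroup.index_ker, card_trioQuot_ker, card_trioGroup] at h
  have hr : Nat.card trioQuot.range = 1008 :=
    Nat.eq_of_mul_eq_mul_left (by norm_num : 0 < 64) (h.trans (by norm_num : (64512 : ℕ) = 64 * 1008))
  have ht : Nat.card (GL (Fin 3) (ZMod 2) × Equiv.Perm (Fin 3)) = 1008 := by
    rw [Nat.card_prod, Matrix.card_GL_field, Nat.card_perm, Nat.card_fin]
    simp [Fin.prod_univ_three, Nat.factorial]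
  rw [← MonoidHom.range_eq_top]
  exact Subgroup.eq_top_of_card_eq _ (hr.trans ht.symm)

theorem trio_structure {T : Finset (Finset GolayPt)} (hT : T ∈ trios) :
    (∀ e : Equiv.Perm ↥T, ∃ g ∈ MulAction.stabilizer M24 T, ∀ o : ↥T,
      ((g : M24) : Equiv.Perm GolayPt) • (o : Finset GolayPt) = ((e o : ↥T) : Finset GolayPt)) ∧
    ∃ (N : Subgroup ↥(MulAction.stabilizer M24 T)) (_ : N.Normal), Nat.card N = 64 ∧
      (∀ x ∈ N, x * x = 1) ∧
      Nonempty (↥(MulAction.stabilizer M24 T) ⧸ N ≃* GL (Fin 3) (ZMod 2) × Equiv.Perm (Fin 3)) := by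
  obtain ⟨g, hg, hgT⟩ := trioFamily.trans_base T hT
  have hgT' : g • decSets 3 trio0 = T := hgT
  set φ := stabConj (x := decSets 3 trio0) (y := T) ⟨g, hg⟩ hgT'
  refine ⟨fun e => ?_, ?_⟩
  · have hbij : Function.Bijective (fun i => (⟨g • octAt i, by
        rw [← hgT']; exact Finset.smul_mem_smul_finset ((octAt_range _).mpr ⟨i, rfl⟩)⟩ : ↥T)) := by
      refine ⟨fun i j h => octAt_injective (MulAction.injective g (congrArg Subtype.val h)), ?_⟩
      intro t
      have ht : g⁻¹ • (t : Finset GolayPt) ∈ decSets 3 trio0 := by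
        rw [Finset.inv_smul_mem_iff, hgT']
        exact t.2
      obtain ⟨i, hi⟩ := (octAt_range _).mp ht
      exact ⟨i, Subtype.ext (by show g • octAt i = _; rw [hi, smul_inv_smul])⟩
    let ι : Fin 3 ≃ ↥T := Equiv.ofBijective _ hbij
    obtain ⟨a, ha⟩ := trioQuot_surjective (1, ι.trans (e.trans ι.symm))
    refine ⟨(φ a : M24), (φ a).2, fun o => ?_⟩
    have hA := (trioQuot_acts a).2 (ι.symm o)
    rw [ha] at hA
    simp only [Equiv.trans_apply, Equiv.apply_symm_apply] at hA
    have h1 : ∀ i, g • octAt i = (ι i : Finset GolayPt) := fun i => rfl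
    show (g * ((a : M24) : Equiv.Perm GolayPt) * g⁻¹) • (o : Finset GolayPt) = _
    rw [mul_smul, mul_smul,
      show g⁻¹ • (o : Finset GolayPt) = octAt (ι.symm o) by
        rw [inv_smul_eq_iff, h1, Equiv.apply_symm_apply],
      hA, h1, Equiv.apply_symm_apply]
  · refine ⟨trioQuot.ker.map φ.toMonoidHom, (MonoidHom.normal_ker trioQuot).map _ φ.surjective,
      ?_, ?_, ⟨?_⟩⟩
    · rw [Nat.card_congr (trioQuot.ker.equivMapOfInjective _ φ.injective).toEquiv.symm,
        card_trioQuot_ker]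
    · rintro _ ⟨x, hx, rfl⟩
      obtain ⟨l, hl, e⟩ := (trioQuot_ker x).mp hx
      have hxx : x * x = 1 := Subtype.ext (Subtype.ext (by
        show ((x : M24) : Equiv.Perm GolayPt) * ((x : M24) : Equiv.Perm GolayPt) = 1
        rw [← e]
        exact (ker_acts hl).2.2.1))
      rw [← map_mul, hxx, map_one]
    · haveI : (trioQuot.ker.map (φ : TrioGroup →* ↥(MulAction.stabilizer M24 T))).Normal :=
        (MonoidHom.normal_ker trioQuot).map _ φ.surjective
      exact (QuotientGroup.congr trioQuot.ker _ φ rfl).symm.trans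
        (QuotientGroup.quotientKerEquivOfSurjective trioQuot trioQuot_surjective)

end Cfsg.Agent.M24Geo
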